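import Mathlib

set_option autoImplicit false

namespace Cfsg.Agent.Lib.Helper21

/-- A homomorphism from a perfect group to a group whose image elements commute is trivial. -/
theorem hom_apply_eq_one_of_perfect {G A : Type*} [Group G] [Group A] (hG : Group.IsPerfect G)
    (f : G →* A) (hf : ∀ a b : G, f a * f b = f b * f a) (g : G) : f g = 1 := by
  have h1 : commutator G ≤ f.ker := by
    rw [commutator_def, Subgroup.commutator_le]
    intro a _ b _
    rw [MonoidHom.mem_ker, commutatorElement_def, map_mul, map_mul, map_mul, map_inv, map_inv, hf a b]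
    group
  have h2 : g ∈ commutator G := by rw [hG.commutator_eq_top]; trivial
  exact h1 h2

/-- Two homomorphisms from a perfect group which differ by central elements agree. -/
theorem hom_eq_of_perfect_of_central {G X : Type*} [Group G] [Group X] (hG : Group.IsPerfect G)
    (η₁ η₂ : G →* X) (h : ∀ g, η₁ g * (η₂ g)⁻¹ ∈ Subgroup.center X) : η₁ = η₂ := by
  let d : G →* X :=
    { toFun := fun g => η₁ g * (η₂ g)⁻¹
      map_one' := by simp
      map_mul' := by
        intro a b
        simp only [map_mul, mul_inv_rev]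
        have hb := Subgroup.mem_center_iff.mp (h b) (η₂ a)⁻¹
        calc η₁ a * η₁ b * ((η₂ b)⁻¹ * (η₂ a)⁻¹) = η₁ a * ((η₁ b * (η₂ b)⁻¹) * (η₂ a)⁻¹) := by group
          _ = η₁ a * ((η₂ a)⁻¹ * (η₁ b * (η₂ b)⁻¹)) := by rw [hb]
          _ = _ := by group }
  ext g
  have := hom_apply_eq_one_of_perfect hG d (fun a b => (Subgroup.mem_center_iff.mp (h b) _)) g
  exact mul_inv_eq_one.mp this

end Cfsg.Agent.Lib.Helper21
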