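import Mathlib
import Cfsg.Agent.Lib.Helper21.Perfect

set_option autoImplicit false
open scoped commutatorElement

namespace Cfsg.Agent.Lib.Helper21

section central
variable {E Q : Type*} [Group E] [Group Q]

/-- Commutators only depend on the images under a homomorphism with central kernel. -/
theorem commutatorElement_eq_of_central (π : E →* Q) (hker : π.ker ≤ Subgroup.center E)
    {a a' b b' : E} (ha : π a = π a') (hb : π b = π b') : ⁅a, b⁆ = ⁅a', b'⁆ := by
  have hza : a'⁻¹ * a ∈ Subgroup.center E := hker (by rw [MonoidHom.mem_ker, map_mul, map_inv, ha]; simp)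
  have hzb : b'⁻¹ * b ∈ Subgroup.center E := hker (by rw [MonoidHom.mem_ker, map_mul, map_inv, hb]; simp)
  obtain ⟨z, hz, rfl⟩ : ∃ z, z ∈ Subgroup.center E ∧ a = a' * z := ⟨_, hza, by group⟩
  obtain ⟨w, hw, rfl⟩ : ∃ w, w ∈ Subgroup.center E ∧ b = b' * w := ⟨_, hzb, by group⟩
  rw [Subgroup.mem_center_iff] at hz hw
  simp only [commutatorElement_def, mul_inv_rev]
  calc a' * z * (b' * w) * (z⁻¹ * a'⁻¹) * (w⁻¹ * b'⁻¹)
      = a' * (z * b') * (w * z⁻¹) * a'⁻¹ * w⁻¹ * b'⁻¹ := by group
    _ = a' * (b' * z) * (z⁻¹ * w) * a'⁻¹ * w⁻¹ * b'⁻¹ := by rw [hz b', hw z⁻¹]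
    _ = a' * b' * (w * a'⁻¹) * w⁻¹ * b'⁻¹ := by group
    _ = a' * b' * (a'⁻¹ * w) * w⁻¹ * b'⁻¹ := by rw [hw a'⁻¹]
    _ = a' * b' * a'⁻¹ * b'⁻¹ := by group

theorem finite_commutatorSet_of_central [Finite Q] (π : E →* Q) (hker : π.ker ≤ Subgroup.center E) :
    Finite (commutatorSet E) := by
  classical
  -- a partial section
  let s : Q → E := fun q => if h : ∃ e, π e = q then h.choose else 1
  have hs : ∀ e, π (s (π e)) = π e := by
    intro e
    have h : ∃ e', π e' = π e := ⟨e, rfl⟩
    simp only [s, dif_pos h]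
    exact h.choose_spec
  have : commutatorSet E ⊆ Set.range (fun x : Q × Q => ⁅s x.1, s x.2⁆) := by
    rintro _ ⟨a, b, rfl⟩
    exact ⟨(π a, π b), commutatorElement_eq_of_central π hker (hs a) (hs b)⟩
  exact (Set.finite_range _).subset this

theorem finite_commutator_of_central [Finite Q] (π : E →* Q) (hker : π.ker ≤ Subgroup.center E) :
    Finite (commutator E) := by
  have := finite_commutatorSet_of_central π hker
  infer_instance

/-- If `π : E → Q` is onto then it maps the commutator subgroup onto the commutator subgroup. -/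
theorem map_commutator_of_surjective (π : E →* Q) (hπ : Function.Surjective π) :
    (commutator E).map π = commutator Q := by
  rw [commutator_def, Subgroup.map_commutator, ← MonoidHom.range_eq_map,
    MonoidHom.range_eq_top.mpr hπ, commutator_def]

/-- For a central extension `π : E → Q` of a perfect group, the commutator subgroup of `E` is perfect. -/
theorem commutator_perfect_of_central (hQ : Group.IsPerfect Q) (π : E →* Q) (hπ : Function.Surjective π)
    (hker : π.ker ≤ Subgroup.center E) : Group.IsPerfect (commutator E) := by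
  rw [Subgroup.isPerfect_iff]
  apply le_antisymm
  · exact Subgroup.commutator_le_right _ _
  · have hsurj : ∀ a : E, ∃ a' ∈ commutator E, π a' = π a := by
      intro a
      have : π a ∈ (commutator E).map π := by
        rw [map_commutator_of_surjective π hπ, hQ.commutator_eq_top]; trivial
      exact this
    conv_lhs => rw [commutator_def]
    rw [Subgroup.commutator_le]
    intro a _ b _
    obtain ⟨a', ha', haa⟩ := hsurj a
    obtain ⟨b', hb', hbb⟩ := hsurj b
    rw [commutatorElement_eq_of_central π hker haa.symm hbb.symm]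
    exact Subgroup.commutator_mem_commutator ha' hb'

end central

section presentation
variable {F Q : Type*} [Group F] [Group Q]

/-- `[R, F]` for `R` the kernel of `φ : F → Q`. -/
def relComm (φ : F →* Q) : Subgroup F := ⁅φ.ker, (⊤ : Subgroup F)⁆

instance relComm_normal (φ : F →* Q) : (relComm φ).Normal := by
  unfold relComm; infer_instance

theorem relComm_le_ker (φ : F →* Q) : relComm φ ≤ φ.ker :=
  Subgroup.commutator_le_left _ _

/-- The central extension `F / [R, F]` of `Q`. -/
abbrev CE (φ : F →* Q) : Type _ := F ⧸ relComm φ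

/-- The projection `F / [R, F] → Q`. -/
def CEproj (φ : F →* Q) : CE φ →* Q := QuotientGroup.lift (relComm φ) φ (fun _ hx => relComm_le_ker φ hx)

@[simp] theorem CEproj_mk (φ : F →* Q) (x : F) : CEproj φ (QuotientGroup.mk x) = φ x := rfl

theorem CEproj_surjective (φ : F →* Q) (hφ : Function.Surjective φ) : Function.Surjective (CEproj φ) := by
  intro q
  obtain ⟨x, rfl⟩ := hφ q
  exact ⟨QuotientGroup.mk x, rfl⟩

theorem CEproj_ker_le_center (φ : F →* Q) : (CEproj φ).ker ≤ Subgroup.center (CE φ) := by
  intro x hx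
  induction x using QuotientGroup.induction_on with
  | H x =>
    rw [MonoidHom.mem_ker, CEproj_mk] at hx
    rw [Subgroup.mem_center_iff]
    intro y
    induction y using QuotientGroup.induction_on with
    | H y =>
      rw [← QuotientGroup.mk_mul, ← QuotientGroup.mk_mul, QuotientGroup.eq]
      have : ⁅x⁻¹, y⁻¹⁆ ∈ relComm φ :=
        Subgroup.commutator_mem_commutator (φ.ker.inv_mem hx) (Subgroup.mem_top _)
      have h2 : (y * x)⁻¹ * (x * y) = ⁅x⁻¹, y⁻¹⁆ := by
        simp only [commutatorElement_def]; group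
      rw [h2]
      exact this

/-- A lift `ψ : F → X` of `φ` through a central extension `ξ : X → Q` descends to `F / [R, F]`. -/
theorem CE_exists_lift {X : Type*} [Group X] (φ : F →* Q) (ψ : F →* X) (ξ : X →* Q) (h : ξ.comp ψ = φ)
    (hc : ξ.ker ≤ Subgroup.center X) :
    ∃ ψ' : CE φ →* X, ξ.comp ψ' = CEproj φ ∧ ∀ x : F, ψ' (QuotientGroup.mk x) = ψ x := by
  have hk : ∀ x ∈ relComm φ, ψ x = 1 := by
    have : relComm φ ≤ ψ.ker := by
      unfold relComm
      rw [Subgroup.commutator_le]
      intro a ha b _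
      rw [MonoidHom.mem_ker, map_commutatorElement]
      have ha' : ψ a ∈ Subgroup.center X := by
        apply hc
        rw [MonoidHom.mem_ker]
        have : ξ (ψ a) = φ a := by rw [← h]; rfl
        rw [this]; exact ha
      rw [commutatorElement_eq_one_iff_mul_comm]
      exact (Subgroup.mem_center_iff.mp ha' (ψ b)).symm
    exact fun x hx => this hx
  refine ⟨QuotientGroup.lift (relComm φ) ψ hk, ?_, fun x => rfl⟩
  ext x
  show ξ (ψ x) = φ x
  rw [← h]; rfl

/-- Free groups lift through surjections. -/
theorem exists_lift_of_free {S X : Type*} [Group X] (f : S → Q) (ξ : X →* Q) (hξ : Function.Surjective ξ) :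
    ∃ ψ : FreeGroup S →* X, ξ.comp ψ = FreeGroup.lift f := by
  refine ⟨FreeGroup.lift (fun s => (hξ (f s)).choose), ?_⟩
  ext s
  simp only [MonoidHom.comp_apply, FreeGroup.lift_apply_of]
  exact (hξ (f s)).choose_spec

/-- The central extension `F/[R,F]` of `Q`, `F` free, maps to every central extension of `Q`. -/
theorem CE_free_exists_lift {S X : Type*} [Group X] (f : S → Q) (ξ : X →* Q) (hξ : Function.Surjective ξ)
    (hc : ξ.ker ≤ Subgroup.center X) :
    ∃ ψ' : CE (FreeGroup.lift f) →* X, ξ.comp ψ' = CEproj (FreeGroup.lift f) := by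
  obtain ⟨ψ, hψ⟩ := exists_lift_of_free f ξ hξ
  obtain ⟨ψ', h, -⟩ := CE_exists_lift (FreeGroup.lift f) ψ ξ hψ hc
  exact ⟨ψ', h⟩

end presentation

end Cfsg.Agent.Lib.Helper21
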