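import Mathlib
import Cfsg.Agent.Lib.Helper21.Central

set_option autoImplicit false
open scoped commutatorElement

namespace Cfsg.Agent.Lib.Helper21

/-- The central extension of `G` by `T` defined by a bimultiplicative 2-cocycle `β`. -/
@[ext] structure BilinExt {G T : Type*} [Group G] [CommGroup T] (β : G →* G →* T) where
  fst : G
  snd : T

namespace BilinExt
variable {G T : Type*} [Group G] [CommGroup T] (β : G →* G →* T)

instance instMulBilinExt : Mul (BilinExt β) := ⟨fun x y => ⟨x.1 * y.1, x.2 * y.2 * β x.1 y.1⟩⟩
instance instOneBilinExt : One (BilinExt β) := ⟨⟨1, 1⟩⟩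
instance instInvBilinExt : Inv (BilinExt β) := ⟨fun x => ⟨x.1⁻¹, x.2⁻¹ * β x.1 x.1⟩⟩

@[simp] theorem mul_fst (x y : BilinExt β) : (x * y).fst = x.fst * y.fst := rfl
@[simp] theorem mul_snd (x y : BilinExt β) : (x * y).snd = x.snd * y.snd * β x.fst y.fst := rfl
@[simp] theorem one_fst : (1 : BilinExt β).fst = 1 := rfl
@[simp] theorem one_snd : (1 : BilinExt β).snd = 1 := rfl
@[simp] theorem inv_fst (x : BilinExt β) : (x⁻¹).fst = x.fst⁻¹ := rfl
@[simp] theorem inv_snd (x : BilinExt β) : (x⁻¹).snd = x.snd⁻¹ * β x.fst x.fst := rfl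

instance instGroupBilinExt : Group (BilinExt β) :=
  Group.ofLeftAxioms
    (by
      intro x y z
      ext
      · simp [mul_assoc]
      · simp only [mul_snd, mul_fst, map_mul, MonoidHom.mul_apply]
        simp only [mul_assoc, mul_left_comm, mul_comm])
    (by
      intro x
      ext <;> simp)
    (by
      intro x
      ext
      · simp
      · simp only [mul_snd, inv_snd, inv_fst, map_inv, MonoidHom.inv_apply, one_snd]
        rw [mul_comm x.snd⁻¹, mul_assoc, mul_assoc, inv_mul_cancel_left, mul_inv_cancel])

/-- The projection onto `G`. -/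
def proj : BilinExt β →* G where
  toFun x := x.fst
  map_one' := rfl
  map_mul' _ _ := rfl

/-- The inclusion of `T`. -/
def incl : T →* BilinExt β where
  toFun t := ⟨1, t⟩
  map_one' := rfl
  map_mul' a b := by ext <;> simp

@[simp] theorem proj_apply (x : BilinExt β) : proj β x = x.fst := rfl
@[simp] theorem incl_fst (t : T) : (incl β t).fst = 1 := rfl
@[simp] theorem incl_snd (t : T) : (incl β t).snd = t := rfl

theorem proj_surjective : Function.Surjective (proj β) := fun g => ⟨⟨g, 1⟩, rfl⟩

theorem incl_injective : Function.Injective (incl β) := by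
  intro a b h
  exact congrArg BilinExt.snd h

theorem mem_ker_proj (x : BilinExt β) : x ∈ (proj β).ker ↔ x.fst = 1 := Iff.rfl

theorem ker_proj_eq_range : (proj β).ker = (incl β).range := by
  ext x
  constructor
  · intro hx
    refine ⟨x.snd, ?_⟩
    ext
    · exact ((mem_ker_proj β x).mp hx).symm
    · rfl
  · rintro ⟨t, rfl⟩
    rfl

theorem ker_proj_le_center : (proj β).ker ≤ Subgroup.center (BilinExt β) := by
  intro x hx
  rw [mem_ker_proj] at hx
  rw [Subgroup.mem_center_iff]
  intro y
  ext
  · simp [hx]
  · simp [hx, mul_comm]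

/-- The kernel of the projection is isomorphic to `T`. -/
noncomputable def kerEquiv : (proj β).ker ≃* T :=
  ((MulEquiv.subgroupCongr (ker_proj_eq_range β)).trans
    (MonoidHom.ofInjective (incl_injective β)).symm)

/-- Commutator of two elements whose images in `G` commute. -/
theorem commutator_of_commute (x y : BilinExt β) (h : x.fst * y.fst = y.fst * x.fst) :
    ⁅x, y⁆ = incl β (β x.fst y.fst * (β y.fst x.fst)⁻¹) := by
  have key : x * y = incl β (β x.fst y.fst * (β y.fst x.fst)⁻¹) * (y * x) := by
    ext
    · simp [h]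
    · simp only [mul_snd, incl_snd, incl_fst, mul_fst, map_one, MonoidHom.one_apply, mul_one]
      rw [mul_comm y.snd x.snd]
      calc x.snd * y.snd * β x.fst y.fst
          = x.snd * y.snd * β x.fst y.fst * ((β y.fst x.fst)⁻¹ * β y.fst x.fst) := by simp
        _ = _ := by simp only [mul_assoc, mul_left_comm, mul_comm]
  rw [commutatorElement_def]
  calc x * y * x⁻¹ * y⁻¹ = (x * y) * (y * x)⁻¹ := by group
    _ = _ := by rw [key]; group

instance instFiniteBilinExt [Finite G] [Finite T] : Finite (BilinExt β) :=
  Finite.of_injective (fun x : BilinExt β => (x.fst, x.snd)) (by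
    intro a b h
    ext
    · exact congrArg Prod.fst h
    · exact congrArg Prod.snd h)

end BilinExt

/-- The bimultiplicative map `(g, h) ↦ f₁ g * f₂ h` (ring multiplication) attached to two homomorphisms to the
additive group of a ring. -/
def ringBilin {G R : Type*} [Group G] [CommRing R] (f₁ f₂ : G →* Multiplicative R) :
    G →* G →* Multiplicative R where
  toFun g :=
    { toFun := fun h => Multiplicative.ofAdd (Multiplicative.toAdd (f₁ g) * Multiplicative.toAdd (f₂ h))
      map_one' := by simp
      map_mul' := by intro a b; simp [mul_add] }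
  map_one' := by ext; simp
  map_mul' := by intro a b; ext h; simp [add_mul]

@[simp] theorem ringBilin_apply {G R : Type*} [Group G] [CommRing R] (f₁ f₂ : G →* Multiplicative R) (g h : G) :
    ringBilin f₁ f₂ g h = Multiplicative.ofAdd (Multiplicative.toAdd (f₁ g) * Multiplicative.toAdd (f₂ h)) := rfl

end Cfsg.Agent.Lib.Helper21
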