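import Mathlib
import Cfsg.Prelude.Def_KGroupFacts
import Cfsg.Agent.Lib.Helper21.Central

set_option autoImplicit false
open scoped commutatorElement

namespace Cfsg.Agent.Lib.Helper21

universe u v w

section pullback
variable {G X Q : Type*} [Group G] [Group X] [Group Q]

/-- The pullback (fibre product) of two homomorphisms to `Q`. -/
def pullback (π : G →* Q) (ξ : X →* Q) : Subgroup (G × X) :=
  (π.comp (MonoidHom.fst G X)).eqLocus (ξ.comp (MonoidHom.snd G X))

theorem mem_pullback (π : G →* Q) (ξ : X →* Q) (y : G × X) : y ∈ pullback π ξ ↔ π y.1 = ξ y.2 := Iff.rfl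

def pullbackFst (π : G →* Q) (ξ : X →* Q) : pullback π ξ →* G :=
  (MonoidHom.fst G X).comp (pullback π ξ).subtype

def pullbackSnd (π : G →* Q) (ξ : X →* Q) : pullback π ξ →* X :=
  (MonoidHom.snd G X).comp (pullback π ξ).subtype

theorem pullback_comm (π : G →* Q) (ξ : X →* Q) (y : pullback π ξ) :
    π (pullbackFst π ξ y) = ξ (pullbackSnd π ξ y) := y.2

theorem pullbackFst_surjective (π : G →* Q) (ξ : X →* Q) (hξ : Function.Surjective ξ) :
    Function.Surjective (pullbackFst π ξ) := by
  intro g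
  obtain ⟨x, hx⟩ := hξ (π g)
  exact ⟨⟨(g, x), hx.symm⟩, rfl⟩

theorem pullbackSnd_surjective (π : G →* Q) (ξ : X →* Q) (hπ : Function.Surjective π) :
    Function.Surjective (pullbackSnd π ξ) := by
  intro x
  obtain ⟨g, hg⟩ := hπ (ξ x)
  exact ⟨⟨(g, x), hg⟩, rfl⟩

theorem pullbackFst_ker_le_center (π : G →* Q) (ξ : X →* Q) (hc : ξ.ker ≤ Subgroup.center X) :
    (pullbackFst π ξ).ker ≤ Subgroup.center (pullback π ξ) := by
  rintro ⟨⟨g, x⟩, hy⟩ hk
  have hg : g = 1 := hk
  subst hg
  have hx : x ∈ Subgroup.center X := hc (by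
    rw [MonoidHom.mem_ker]
    have : π 1 = ξ x := hy
    rw [← this, map_one])
  rw [Subgroup.mem_center_iff] at hx ⊢
  rintro ⟨⟨g', x'⟩, hy'⟩
  ext
  · simp
  · exact hx x'

theorem pullbackSnd_ker_le_center (π : G →* Q) (ξ : X →* Q) (hc : π.ker ≤ Subgroup.center G) :
    (pullbackSnd π ξ).ker ≤ Subgroup.center (pullback π ξ) := by
  rintro ⟨⟨g, x⟩, hy⟩ hk
  have hx : x = 1 := hk
  subst hx
  have hg : g ∈ Subgroup.center G := hc (by
    rw [MonoidHom.mem_ker]
    have : π g = ξ 1 := hy
    rw [this, map_one])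
  rw [Subgroup.mem_center_iff] at hg ⊢
  rintro ⟨⟨g', x'⟩, hy'⟩
  ext
  · exact hg g'
  · simp

end pullback

section stem

/-- The identity is a stem extension with trivial kernel. -/
theorem exists_trivial_stem (G : Type u) [Group G] [Finite G] :
    ∃ (Γ : Type u) (_ : Group Γ) (_ : Finite Γ) (σ : Γ →* G), Cfsg.IsStemExtension σ ∧
      Nonempty (σ.ker ≃* Multiplicative (ZMod 1)) := by
  refine ⟨G, inferInstance, inferInstance, MonoidHom.id G, ⟨Function.surjective_id, ?_, ?_⟩, ?_⟩
  · simp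
  · simp
  · have : (MonoidHom.id G).ker = ⊥ := by simp
    rw [this]
    exact ⟨MulEquiv.ofUnique⟩

/-- Trivial Schur multiplier: every finite stem extension has trivial kernel. -/
theorem hasCyclicSchurMultiplier_one_iff (G : Type u) [Group G] [Finite G] :
    Cfsg.HasCyclicSchurMultiplier G 1 ↔
      ∀ (Γ : Type u) [Group Γ] [Finite Γ] (σ : Γ →* G), Cfsg.IsStemExtension σ → σ.ker = ⊥ := by
  constructor
  · rintro ⟨-, h⟩ Γ _ _ σ hσ
    obtain ⟨π, hπ⟩ := h Γ σ hσ
    rw [eq_bot_iff]
    intro x hx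
    obtain ⟨a, ha⟩ := hπ ⟨x, hx⟩
    have ha1 : a = 1 := Subsingleton.elim _ _
    rw [ha1, map_one] at ha
    have := congrArg Subtype.val ha
    exact Subgroup.mem_bot.mpr this.symm
  · intro h
    refine ⟨exists_trivial_stem G, ?_⟩
    intro Γ _ _ σ hσ
    have hk := h Γ σ hσ
    refine ⟨1, ?_⟩
    intro x
    refine ⟨1, ?_⟩
    have hx : (x : Γ) ∈ (⊥ : Subgroup Γ) := hk ▸ x.2
    ext
    simpa using (Subgroup.mem_bot.mp hx).symm

/-- A stem extension of a perfect group is perfect. -/
theorem perfect_of_stem {Γ G : Type*} [Group Γ] [Group G] (hG : Group.IsPerfect G) (σ : Γ →* G)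
    (hσ : Cfsg.IsStemExtension σ) : Group.IsPerfect Γ := by
  obtain ⟨hs, -, hd⟩ := hσ
  refine ⟨?_⟩
  rw [eq_top_iff]
  intro x _
  have : σ x ∈ (commutator Γ).map σ := by
    rw [map_commutator_of_surjective σ hs, hG.commutator_eq_top]; trivial
  obtain ⟨y, hy, hyx⟩ := this
  have h2 : y⁻¹ * x ∈ commutator Γ := hd (by rw [MonoidHom.mem_ker, map_mul, map_inv, hyx]; simp)
  have := (commutator Γ).mul_mem hy h2
  simpa using this

/-- For a central extension `p : P → G` of a perfect group, the restriction to the commutator subgroup is a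
stem extension. -/
theorem stem_of_central_of_perfect {P G : Type*} [Group P] [Group G] (hG : Group.IsPerfect G) (p : P →* G)
    (hp : Function.Surjective p) (hc : p.ker ≤ Subgroup.center P) :
    Cfsg.IsStemExtension (p.comp (commutator P).subtype) := by
  have hperf := commutator_perfect_of_central hG p hp hc
  refine ⟨?_, ?_, ?_⟩
  · intro q
    have : q ∈ (commutator P).map p := by
      rw [map_commutator_of_surjective _ hp, hG.commutator_eq_top]; trivial
    obtain ⟨x, hx, rfl⟩ := this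
    exact ⟨⟨x, hx⟩, rfl⟩
  · intro x hx
    have hx' : (x : P) ∈ Subgroup.center P := hc hx
    rw [Subgroup.mem_center_iff] at hx' ⊢
    intro y
    ext
    exact hx' y
  · rw [hperf.commutator_eq_top]; exact le_top

end stem

end Cfsg.Agent.Lib.Helper21
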