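import Mathlib
import Cfsg.Prelude.Def_KGroupFacts
import Cfsg.Agent.Lib.Helper21.Stem

set_option autoImplicit false
open scoped commutatorElement

namespace Cfsg.Agent.Lib.Helper21

universe u v w

section splitting

/-- A homomorphism to a free abelian group of finite rank has a "retraction onto a complement of the kernel". -/
theorem exists_retraction_add {Z A ι : Type*} [AddCommGroup Z] [AddCommGroup A] [Finite ι]
    (b : Module.Basis ι ℤ A) (θ : Z →+ A) :
    ∃ ρ : Z →+ Z, (∀ z, θ (ρ z) = θ z) ∧ (∀ z, θ z = 0 → ρ z = 0) := by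
  let θ' : Z →ₗ[ℤ] A := θ.toIntLinearMap
  obtain ⟨n, ⟨bN⟩⟩ := Submodule.nonempty_basis_of_pid b (LinearMap.range θ')
  have : Module.Free ℤ (LinearMap.range θ') := Module.Free.of_basis bN
  obtain ⟨s, hs⟩ := θ'.rangeRestrict.exists_rightInverse_of_surjective (LinearMap.range_rangeRestrict θ')
  refine ⟨(s.comp θ'.rangeRestrict).toAddMonoidHom, ?_, ?_⟩
  · intro z
    have := congrArg (fun g => (g (θ'.rangeRestrict z) : A)) hs
    exact this
  · intro z hz
    have : θ'.rangeRestrict z = 0 := by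
      ext
      exact hz
    show s (θ'.rangeRestrict z) = 0
    rw [this, map_zero]

theorem exists_retraction_mul {Z A ι : Type*} [CommGroup Z] [CommGroup A] [Finite ι]
    (b : Module.Basis ι ℤ (Additive A)) (θ : Z →* A) :
    ∃ ρ : Z →* Z, (∀ z, θ (ρ z) = θ z) ∧ (∀ z, θ z = 1 → ρ z = 1) := by
  obtain ⟨ρ, h1, h2⟩ := exists_retraction_add b (MonoidHom.toAdditive θ)
  refine ⟨MonoidHom.toAdditive.symm ρ, ?_, ?_⟩
  · intro z
    exact h1 (Additive.ofMul z)
  · intro z hz
    exact h2 (Additive.ofMul z) hz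

end splitting

section thmB
variable {E X Q : Type*} [Group E] [Group X] [Group Q]

/-- If `ψ : E → X` is a map of central extensions of `Q`, then it maps `E'` onto `X'`. -/
theorem commutator_le_map_of_over (p : E →* Q) (hp : Function.Surjective p) (ξ : X →* Q)
    (hc : ξ.ker ≤ Subgroup.center X) (ψ : E →* X) (hψ : ξ.comp ψ = p) :
    commutator X ≤ (commutator E).map ψ := by
  rw [commutator_def, Subgroup.commutator_le]
  intro a _ b _
  obtain ⟨a', ha'⟩ := hp (ξ a)
  obtain ⟨b', hb'⟩ := hp (ξ b)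
  have h1 : ξ a = ξ (ψ a') := by rw [← ha', ← hψ]; rfl
  have h2 : ξ b = ξ (ψ b') := by rw [← hb', ← hψ]; rfl
  rw [commutatorElement_eq_of_central ξ hc h1 h2, ← map_commutatorElement]
  exact Subgroup.mem_map_of_mem _ (Subgroup.commutator_mem_commutator (Subgroup.mem_top _) (Subgroup.mem_top _))

/-- **Theorem B.** A map of central extensions maps `ker ∩ E'` onto `ker ∩ X'`. -/
theorem map_ker_inf_commutator (p : E →* Q) (hp : Function.Surjective p) (ξ : X →* Q)
    (hc : ξ.ker ≤ Subgroup.center X) (ψ : E →* X) (hψ : ξ.comp ψ = p) :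
    (p.ker ⊓ commutator E).map ψ = ξ.ker ⊓ commutator X := by
  apply le_antisymm
  · rintro _ ⟨x, ⟨hx1, hx2⟩, rfl⟩
    refine ⟨?_, ?_⟩
    · show ξ (ψ x) = 1
      have : ξ (ψ x) = p x := by rw [← hψ]; rfl
      rw [this]; exact hx1
    · have : (commutator E).map ψ ≤ commutator X := by
        rw [commutator_def, Subgroup.map_commutator, commutator_def]
        exact Subgroup.commutator_mono le_top le_top
      exact this (Subgroup.mem_map_of_mem _ hx2)
  · rintro y ⟨hy1, hy2⟩
    obtain ⟨e, he, rfl⟩ := commutator_le_map_of_over p hp ξ hc ψ hψ hy2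
    refine ⟨e, ⟨?_, he⟩, rfl⟩
    show p e = 1
    rw [← hψ]; exact hy1

end thmB

section complement

/-- In a group `E` with a homomorphism `θ` to a free abelian group of finite rank whose kernel is `E'`, every central
subgroup `N` splits as `C × (N ∩ E')`. -/
theorem exists_complement_in_central {E A ι : Type*} [Group E] [CommGroup A] [Finite ι]
    (b : Module.Basis ι ℤ (Additive A)) (θ : E →* A) (hθ : θ.ker = commutator E)
    (N : Subgroup E) (hN : N ≤ Subgroup.center E) :
    ∃ C : Subgroup E, C ≤ N ∧ C ⊓ commutator E = ⊥ ∧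
      ∀ z ∈ N, ∃ c ∈ C, ∃ m ∈ N ⊓ commutator E, z = c * m := by
  letI : CommGroup N :=
    { N.toGroup with
      mul_comm := by
        intro x y
        ext
        exact (Subgroup.mem_center_iff.mp (hN y.2) x.1) }
  obtain ⟨ρ, h1, h2⟩ := exists_retraction_mul b (θ.comp N.subtype)
  refine ⟨ρ.range.map N.subtype, ?_, ?_, ?_⟩
  · rintro _ ⟨x, -, rfl⟩
    exact x.2
  · rw [eq_bot_iff]
    rintro _ ⟨⟨_, ⟨n, rfl⟩, rfl⟩, hc⟩
    have hc : N.subtype (ρ n) ∈ θ.ker := by rw [hθ]; exact hc
    rw [MonoidHom.mem_ker] at hc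
    have h3 : (θ.comp N.subtype) n = 1 := by rw [← h1 n]; exact hc
    rw [Subgroup.mem_bot, h2 n h3]
    rfl
  · intro z hz
    refine ⟨(ρ ⟨z, hz⟩ : N), ⟨_, ⟨_, rfl⟩, rfl⟩, ((ρ ⟨z, hz⟩ : N) : E)⁻¹ * z, ⟨?_, ?_⟩, by group⟩
    · exact N.mul_mem (N.inv_mem (ρ ⟨z, hz⟩).2) hz
    · show _ ∈ commutator E
      rw [← hθ, MonoidHom.mem_ker, map_mul, map_inv]
      have := h1 ⟨z, hz⟩
      simp only [MonoidHom.comp_apply, Subgroup.subtype_apply] at this
      rw [this]; simp

/-- Quotient of a central extension by a complement of `ker ∩ E'` in `ker`: a stem extension. -/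
theorem exists_stem_quotient {E Q : Type u} [Group E] [Group Q] [Finite Q] (p : E →* Q)
    (hp : Function.Surjective p) (hc : p.ker ≤ Subgroup.center E)
    (C : Subgroup E) (hC : C ≤ p.ker) (hC1 : C ⊓ commutator E = ⊥)
    (hC2 : ∀ z ∈ p.ker, ∃ c ∈ C, ∃ m ∈ p.ker ⊓ commutator E, z = c * m) :
    ∃ (Γ : Type u) (_ : Group Γ) (_ : Finite Γ) (σ : Γ →* Q) (q : E →* Γ), Cfsg.IsStemExtension σ ∧
      σ.comp q = p ∧ Function.Surjective q ∧ q.ker = C ∧
      Nonempty (↥(p.ker ⊓ commutator E) ≃* σ.ker) := by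
  have hCn : C.Normal := by
    constructor
    intro c hcC g
    have : c ∈ Subgroup.center E := hc (hC hcC)
    have h2 : g * c * g⁻¹ = c := by
      rw [Subgroup.mem_center_iff.mp this g]; group
    rw [h2]; exact hcC
  let σ : E ⧸ C →* Q := QuotientGroup.lift C p (fun x hx => hC hx)
  let q : E →* E ⧸ C := QuotientGroup.mk' C
  have hσq : σ.comp q = p := by ext x; rfl
  have hq : Function.Surjective q := QuotientGroup.mk'_surjective C
  -- the isomorphism
  let j : ↥(p.ker ⊓ commutator E) →* σ.ker :=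
    { toFun := fun m => ⟨q m.1, by
        rw [MonoidHom.mem_ker]
        show p m.1 = 1
        exact m.2.1⟩
      map_one' := by ext; simp
      map_mul' := by intro a b; ext; simp }
  have hj_inj : Function.Injective j := by
    rw [injective_iff_map_eq_one]
    intro m hm
    have h1 : q m.1 = 1 := congrArg Subtype.val hm
    have h2 : m.1 ∈ C := by
      rw [← QuotientGroup.ker_mk' C]; exact h1
    have h3 : m.1 ∈ C ⊓ commutator E := ⟨h2, m.2.2⟩
    rw [hC1, Subgroup.mem_bot] at h3
    ext; exact h3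
  have hj_surj : Function.Surjective j := by
    rintro ⟨x, hx⟩
    obtain ⟨e, rfl⟩ := hq x
    have he : e ∈ p.ker := hx
    obtain ⟨c, hcC, m, hm, rfl⟩ := hC2 e he
    refine ⟨⟨m, hm⟩, ?_⟩
    ext
    show q m = q (c * m)
    rw [map_mul]
    have : q c = 1 := by
      have : c ∈ (QuotientGroup.mk' C).ker := by rw [QuotientGroup.ker_mk' C]; exact hcC
      exact this
    rw [this, one_mul]
  have hfinM : Finite ↥(p.ker ⊓ commutator E) := by
    have := finite_commutator_of_central p hc
    exact Finite.of_injective (fun m : ↥(p.ker ⊓ commutator E) => (⟨m.1, m.2.2⟩ : commutator E))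
      (by intro a b hab; ext; exact congrArg (fun t : commutator E => (t : E)) hab)
  have hfin : Finite (E ⧸ C) := by
    rw [σ.finite_iff_finite_ker_range]
    exact ⟨Finite.of_surjective j hj_surj, inferInstance⟩
  refine ⟨E ⧸ C, inferInstance, hfin, σ, q, ⟨?_, ?_, ?_⟩, hσq, hq, QuotientGroup.ker_mk' C,
    ⟨MulEquiv.ofBijective j ⟨hj_inj, hj_surj⟩⟩⟩
  · intro y
    obtain ⟨e, rfl⟩ := hp y
    exact ⟨q e, rfl⟩
  · intro x hx
    obtain ⟨e, rfl⟩ := hq x
    have he : e ∈ Subgroup.center E := hc hx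
    rw [Subgroup.mem_center_iff]
    intro y
    obtain ⟨e', rfl⟩ := hq y
    rw [← map_mul, ← map_mul, Subgroup.mem_center_iff.mp he e']
  · intro x hx
    obtain ⟨m, hm⟩ := hj_surj ⟨x, hx⟩
    have hx' : x = q m.1 := (congrArg Subtype.val hm).symm
    rw [hx', ← map_commutator_of_surjective q hq]
    exact Subgroup.mem_map_of_mem _ m.2.2

end complement

section freecover
variable {S Q : Type u} [Group Q]

/-- The map `F/[R,F] → F/F'`. -/
def CEab (f : S → Q) : CE (FreeGroup.lift f) →* Abelianization (FreeGroup S) :=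
  QuotientGroup.lift (relComm (FreeGroup.lift f)) Abelianization.of (by
    intro x hx
    have h1 : relComm (FreeGroup.lift f) ≤ commutator (FreeGroup S) := by
      unfold relComm
      rw [commutator_def]
      exact Subgroup.commutator_mono le_top le_rfl
    have : x ∈ (Abelianization.of : FreeGroup S →* _).ker := by
      rw [Abelianization.ker_of]; exact h1 hx
    exact this)

theorem CEab_ker (f : S → Q) : (CEab f).ker = commutator (CE (FreeGroup.lift f)) := by
  apply le_antisymm
  · intro x hx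
    obtain ⟨y, rfl⟩ := QuotientGroup.mk'_surjective _ x
    have h1 : y ∈ (Abelianization.of : FreeGroup S →* _).ker := hx
    rw [Abelianization.ker_of] at h1
    rw [← map_commutator_of_surjective _ (QuotientGroup.mk'_surjective (relComm (FreeGroup.lift f)))]
    exact Subgroup.mem_map_of_mem _ h1
  · exact Abelianization.commutator_subset_ker _

/-- Existence of a Schur cover "below" a given central subgroup `N` of `F/[R,F]` supplementing `M`. -/
theorem exists_cover_below [Finite S] [Finite Q] (f : S → Q) (hf : Function.Surjective (FreeGroup.lift f))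
    (N : Subgroup (CE (FreeGroup.lift f))) (hN : N ≤ (CEproj (FreeGroup.lift f)).ker)
    (hN2 : ∀ z ∈ (CEproj (FreeGroup.lift f)).ker, ∃ n ∈ N,
      ∃ m ∈ (CEproj (FreeGroup.lift f)).ker ⊓ commutator (CE (FreeGroup.lift f)), z = n * m) :
    ∃ (Γ : Type u) (_ : Group Γ) (_ : Finite Γ) (σ : Γ →* Q) (q : CE (FreeGroup.lift f) →* Γ),
      Cfsg.IsStemExtension σ ∧ σ.comp q = CEproj (FreeGroup.lift f) ∧ Function.Surjective q ∧ q.ker ≤ N ∧
      Nonempty (↥((CEproj (FreeGroup.lift f)).ker ⊓ commutator (CE (FreeGroup.lift f))) ≃* σ.ker) := by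
  have hc := CEproj_ker_le_center (FreeGroup.lift f)
  obtain ⟨C, hCN, hC1, hC2⟩ := exists_complement_in_central
    (A := Abelianization (FreeGroup S)) (FreeAbelianGroup.basis S) (CEab f) (CEab_ker f) N (hN.trans hc)
  obtain ⟨Γ, i1, i2, σ, q, h1, h2, h3, h4, h5⟩ := exists_stem_quotient (CEproj (FreeGroup.lift f))
    (CEproj_surjective _ hf) hc C (hCN.trans hN) hC1 (by
      intro z hz
      obtain ⟨n, hn, m, hm, rfl⟩ := hN2 z hz
      obtain ⟨c, hcC, m', hm', rfl⟩ := hC2 n hn
      refine ⟨c, hcC, m' * m, ?_, by group⟩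
      exact Subgroup.mul_mem _ ⟨hN hm'.1, hm'.2⟩ hm)
  exact ⟨Γ, i1, i2, σ, q, h1, h2, h3, h4 ▸ hCN, h5⟩

end freecover

end Cfsg.Agent.Lib.Helper21
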