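import Mathlib
import Cfsg.Prelude.Def_KGroupFacts
import Cfsg.Agent.Lib.Helper21.Cover

set_option autoImplicit false
open scoped commutatorElement

namespace Cfsg.Agent.Lib.Helper21

universe u v w

section main
variable {S Q : Type u} [Group Q]

/-- The Schur multiplier `(R ∩ F') / [R, F]` attached to a free presentation. -/
abbrev presM (f : S → Q) : Subgroup (CE (FreeGroup.lift f)) :=
  (CEproj (FreeGroup.lift f)).ker ⊓ commutator (CE (FreeGroup.lift f))

theorem presM_finite [Finite Q] (f : S → Q) : Finite (presM f) := by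
  have := finite_commutator_of_central (CEproj (FreeGroup.lift f)) (CEproj_ker_le_center _)
  exact Finite.of_injective (fun m : ↥(presM f) => (⟨m.1, m.2.2⟩ : commutator (CE (FreeGroup.lift f))))
    (by intro a b hab; ext; exact congrArg (fun t : commutator (CE (FreeGroup.lift f)) => (t : CE (FreeGroup.lift f))) hab)

/-- `M` maps onto `ker ∩ X'` for every central extension `X` of `Q`. -/
theorem presM_surj_of_central (f : S → Q) (hf : Function.Surjective (FreeGroup.lift f))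
    {X : Type w} [Group X] (ξ : X →* Q) (hξ : Function.Surjective ξ) (hc : ξ.ker ≤ Subgroup.center X) :
    ∃ π : presM f →* ↥(ξ.ker ⊓ commutator X), Function.Surjective π := by
  obtain ⟨ψ, hψ⟩ := CE_free_exists_lift f ξ hξ hc
  have hmap := map_ker_inf_commutator (CEproj (FreeGroup.lift f)) (CEproj_surjective _ hf) ξ hc ψ hψ
  refine ⟨(ψ.comp (presM f).subtype).codRestrict (ξ.ker ⊓ commutator X) ?_, ?_⟩
  · intro m
    rw [← hmap]
    exact Subgroup.mem_map_of_mem _ m.2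
  · rintro ⟨y, hy⟩
    rw [← hmap] at hy
    obtain ⟨m, hm, rfl⟩ := hy
    exact ⟨⟨m, hm⟩, rfl⟩

/-- Existence of a Schur cover. -/
theorem exists_cover [Finite S] [Finite Q] (f : S → Q) (hf : Function.Surjective (FreeGroup.lift f)) :
    ∃ (Γ : Type u) (_ : Group Γ) (_ : Finite Γ) (σ : Γ →* Q),
      Cfsg.IsStemExtension σ ∧ Nonempty (↥(presM f) ≃* σ.ker) := by
  obtain ⟨Γ, i1, i2, σ, q, h1, -, -, -, h5⟩ := exists_cover_below f hf _ le_rfl
    (fun z hz => ⟨z, hz, 1, Subgroup.one_mem _, by simp⟩)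
  exact ⟨Γ, i1, i2, σ, h1, h5⟩

theorem stem_ker_inf {Γ G : Type*} [Group Γ] [Group G] (σ : Γ →* G) (hσ : Cfsg.IsStemExtension σ) :
    σ.ker ⊓ commutator Γ = σ.ker := inf_eq_left.mpr hσ.2.2

/-- The multiplier (in the sense of `HasSchurMultiplier`) is isomorphic to `(R ∩ F')/[R,F]`. -/
theorem equiv_presM [Finite S] [Finite Q] (f : S → Q) (hf : Function.Surjective (FreeGroup.lift f))
    {A : Type v} [CommGroup A] (hA : Cfsg.HasSchurMultiplier Q A) : Nonempty (A ≃* presM f) := by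
  obtain ⟨⟨Γ₁, _, _, σ₁, hσ₁, ⟨e₁⟩⟩, hA2⟩ := hA
  obtain ⟨π₁, hπ₁⟩ := presM_surj_of_central f hf σ₁ hσ₁.1 hσ₁.2.1
  obtain ⟨Γ₀, _, _, σ₀, hσ₀, ⟨e₀⟩⟩ := exists_cover f hf
  obtain ⟨π₀, hπ₀⟩ := hA2 Γ₀ σ₀ hσ₀
  have hfinM := presM_finite f
  have hfinA : Finite A := Finite.of_equiv _ e₁.toEquiv
  have hle1 : Nat.card A ≤ Nat.card (presM f) := by
    rw [← Nat.card_congr e₁.toEquiv]
    have h := Nat.card_le_card_of_surjective π₁ hπ₁
    have h2 : Nat.card ↥(σ₁.ker ⊓ commutator Γ₁) = Nat.card σ₁.ker := by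
      rw [stem_ker_inf σ₁ hσ₁]
    omega
  let g : A →* presM f := e₀.symm.toMonoidHom.comp π₀
  have hg : Function.Surjective g := e₀.symm.surjective.comp hπ₀
  have hle2 : Nat.card (presM f) ≤ Nat.card A := Nat.card_le_card_of_surjective g hg
  have hbij : Function.Bijective g :=
    (Nat.bijective_iff_surjective_and_card g).mpr ⟨hg, le_antisymm hle1 hle2⟩
  exact ⟨MulEquiv.ofBijective g hbij⟩

end main

section std
variable {Q : Type u} [Group Q]

theorem lift_id_surjective : Function.Surjective (FreeGroup.lift (id : Q → Q)) :=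
  fun q => ⟨FreeGroup.of q, by simp⟩

/-- The multiplier maps onto `ker ∩ X'` for every central extension `X` of `Q`. -/
theorem surj_of_central [Finite Q] {A : Type v} [CommGroup A] (hA : Cfsg.HasSchurMultiplier Q A)
    {X : Type w} [Group X] (ξ : X →* Q) (hξ : Function.Surjective ξ) (hc : ξ.ker ≤ Subgroup.center X) :
    ∃ π : A →* ↥(ξ.ker ⊓ commutator X), Function.Surjective π := by
  obtain ⟨e⟩ := equiv_presM (id : Q → Q) lift_id_surjective hA
  obtain ⟨π, hπ⟩ := presM_surj_of_central (id : Q → Q) lift_id_surjective ξ hξ hc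
  exact ⟨π.comp e.toMonoidHom, hπ.comp e.surjective⟩

theorem finite_of_hasSchurMultiplier {A : Type v} [CommGroup A] (hA : Cfsg.HasSchurMultiplier Q A) :
    Finite A := by
  obtain ⟨⟨Γ₁, _, _, σ₁, hσ₁, ⟨e₁⟩⟩, hA2⟩ := hA
  exact Finite.of_equiv _ e₁.toEquiv

/-- Uniqueness of the multiplier. -/
theorem hasSchurMultiplier_unique [Finite Q] {A : Type v} {B : Type w} [CommGroup A] [CommGroup B]
    (hA : Cfsg.HasSchurMultiplier Q A) (hB : Cfsg.HasSchurMultiplier Q B) : Nonempty (A ≃* B) := by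
  obtain ⟨e⟩ := equiv_presM (id : Q → Q) lift_id_surjective hA
  obtain ⟨e'⟩ := equiv_presM (id : Q → Q) lift_id_surjective hB
  exact ⟨e.trans e'.symm⟩

/-- Transport of `HasSchurMultiplier` along an isomorphism of the multiplier. -/
theorem hasSchurMultiplier_congr {A : Type v} {B : Type w} [CommGroup A] [CommGroup B]
    (hA : Cfsg.HasSchurMultiplier Q A) (e : A ≃* B) : Cfsg.HasSchurMultiplier Q B := by
  obtain ⟨⟨Γ₁, i1, i2, σ₁, hσ₁, ⟨e₁⟩⟩, hA2⟩ := hA
  refine ⟨⟨Γ₁, i1, i2, σ₁, hσ₁, ⟨e₁.trans e⟩⟩, ?_⟩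
  intro Γ _ _ σ hσ
  obtain ⟨π, hπ⟩ := hA2 Γ σ hσ
  exact ⟨π.comp e.symm.toMonoidHom, hπ.comp e.symm.surjective⟩

end std

end Cfsg.Agent.Lib.Helper21
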