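import Mathlib
import Cfsg.Prelude.Def_KGroupFacts
import Cfsg.Agent.Lib.Helper21.Multiplier

/-!
# Schur covers are isomorphic over the group when `|Q^ab|` is prime to the multiplier
-/

set_option autoImplicit false
open scoped commutatorElement

namespace Cfsg.Agent.Lib.Helper21

universe u v w

/-- the elements whose `m`-th power lies in the commutator subgroup -/
def torD (P : Type*) [Group P] (m : ℕ) : Subgroup P :=
  ((powMonoidHom m : Abelianization P →* Abelianization P).comp Abelianization.of).ker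

theorem mem_torD {P : Type*} [Group P] (m : ℕ) (w : P) : w ∈ torD P m ↔ w ^ m ∈ commutator P := by
  rw [torD, MonoidHom.mem_ker, MonoidHom.comp_apply, powMonoidHom_apply, ← map_pow]
  exact QuotientGroup.eq_one_iff (N := commutator P) (w ^ m)

theorem eq_one_of_pow_coprime {P : Type*} [Group P] {m a : ℕ} (h : Nat.Coprime m a) {w : P}
    (h1 : w ^ m = 1) (h2 : w ^ a = 1) : w = 1 := by
  have := Nat.eq_one_of_dvd_coprimes h (orderOf_dvd_of_pow_eq_one h1) (orderOf_dvd_of_pow_eq_one h2)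
  exact orderOf_eq_one_iff.1 this

theorem bij_on_torD {P Γ Q : Type*} [Group P] [Group Γ] [Group Q] [Finite Q] [Finite P]
    (π : P →* Q) (hπ : Function.Surjective π) (hc : π.ker ≤ Subgroup.center P)
    (p : P →* Γ) (hp : Function.Surjective p) (σ : Γ →* Q) (hσ : Cfsg.IsStemExtension σ)
    (hcomp : ∀ w, σ (p w) = π w) (a : ℕ)
    (hR : Nat.card ↥(π.ker ⊓ commutator P) ≤ a) (hK : Nat.card σ.ker = a)
    (hpa : ∀ w ∈ p.ker, w ^ a = 1)
    (hcop : Nat.Coprime (Nat.card (Abelianization Q)) a) :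
    Function.Bijective (p.comp (torD P (Nat.card (Abelianization Q))).subtype) := by
  set m := Nat.card (Abelianization Q) with hm
  obtain ⟨hσs, hσc, hσd⟩ := hσ
  have F1 : ∀ k ∈ σ.ker, ∃ r ∈ π.ker ⊓ commutator P, p r = k := by
    intro k hk
    have h1 : k ∈ (commutator P).map p := by
      rw [map_commutator_of_surjective p hp]; exact hσd hk
    obtain ⟨r, hr, rfl⟩ := h1
    refine ⟨r, ⟨?_, hr⟩, rfl⟩
    show r ∈ π.ker
    rw [MonoidHom.mem_ker, ← hcomp]; exact hk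
  let φ : ↥(π.ker ⊓ commutator P) → σ.ker := fun r => ⟨p r, by
    rw [MonoidHom.mem_ker, hcomp]; exact r.2.1⟩
  have hφs : Function.Surjective φ := by
    rintro ⟨k, hk⟩
    obtain ⟨r, hr, rfl⟩ := F1 k hk
    exact ⟨⟨r, hr⟩, rfl⟩
  have hφb : Function.Bijective φ :=
    hφs.bijective_of_nat_card_le (by rw [hK]; exact hR)
  have F2 : ∀ r ∈ π.ker ⊓ commutator P, p r = 1 → r = 1 := by
    intro r hr h1
    have : φ ⟨r, hr⟩ = φ ⟨1, Subgroup.one_mem _⟩ := by
      apply Subtype.ext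
      show p r = p 1
      rw [h1, map_one]
    exact congrArg Subtype.val (hφb.1 this)
  constructor
  · rw [injective_iff_map_eq_one]
    rintro ⟨w, hw⟩ h1
    have h1' : p w = 1 := h1
    rw [mem_torD] at hw
    have h2 : w ^ m = 1 := by
      apply F2 _ ⟨?_, hw⟩
      · rw [map_pow, h1', one_pow]
      · show w ^ m ∈ π.ker
        rw [MonoidHom.mem_ker, ← hcomp, map_pow, h1', one_pow, map_one]
    exact Subtype.ext (eq_one_of_pow_coprime hcop h2 (hpa w h1'))
  · intro g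
    obtain ⟨w, rfl⟩ := hp g
    have h1 : π w ^ m ∈ commutator Q := by
      have : (Abelianization.of (π w)) ^ m = 1 := pow_card_eq_one'
      rw [← map_pow] at this
      exact (QuotientGroup.eq_one_iff (N := commutator Q) _).1 this
    rw [← map_commutator_of_surjective π hπ] at h1
    obtain ⟨c, hc1, hc2⟩ := h1
    set t := w ^ m * c⁻¹ with ht
    have ht1 : π t = 1 := by rw [ht, map_mul, map_inv, hc2, map_pow, mul_inv_cancel]
    obtain ⟨r, hr, hr2⟩ := F1 (p t) (by rw [MonoidHom.mem_ker, hcomp, ht1])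
    set z' := t * r⁻¹ with hz'
    have hz1 : z' ∈ p.ker := by rw [MonoidHom.mem_ker, hz', map_mul, map_inv, hr2, mul_inv_cancel]
    have hz2 : z' ∈ Subgroup.center P := by
      apply hc
      rw [MonoidHom.mem_ker, ← hcomp, MonoidHom.mem_ker.1 hz1, map_one]
    have hb : (1 : ℤ) = (m : ℤ) * Nat.gcdA m a + (a : ℤ) * Nat.gcdB m a := by
      have := Nat.gcd_eq_gcd_ab m a
      rw [hcop] at this
      exact_mod_cast this
    set u := Nat.gcdA m a
    have hz3 : (z' ^ u) ^ m = z' := by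
      have h5 : z' ^ (1 : ℤ) = z' ^ ((m : ℤ) * u + (a : ℤ) * Nat.gcdB m a) := by rw [← hb]
      rw [zpow_one, zpow_add, zpow_mul (a := z') (a : ℤ), zpow_natCast, hpa z' hz1, one_zpow, mul_one,
        mul_comm, zpow_mul, zpow_natCast] at h5
      exact h5.symm
    set z := (z' ^ u)⁻¹ with hz
    have hzc : z ∈ Subgroup.center P := Subgroup.inv_mem _ (Subgroup.zpow_mem _ hz2 _)
    have hzk : z ∈ p.ker := Subgroup.inv_mem _ (Subgroup.zpow_mem _ hz1 _)
    have hcm : Commute w z := (Subgroup.mem_center_iff.1 hzc w)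
    have hpow : (w * z) ^ m = r * c := by
      rw [hcm.mul_pow, hz, inv_pow, hz3]
      have e1 : w ^ m = z' * r * c := by rw [hz', ht]; group
      rw [e1]
      have e2 : z' * r * c * z'⁻¹ = z' * z'⁻¹ * (r * c) := by
        have := Subgroup.mem_center_iff.1 (Subgroup.inv_mem _ hz2) (r * c)
        calc z' * r * c * z'⁻¹ = z' * ((r * c) * z'⁻¹) := by group
          _ = z' * (z'⁻¹ * (r * c)) := by rw [this]
          _ = _ := by group
      rw [e2, mul_inv_cancel, one_mul]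
    refine ⟨⟨w * z, ?_⟩, ?_⟩
    · rw [mem_torD, hpow]
      exact Subgroup.mul_mem _ hr.2 hc1
    · show p (w * z) = p w
      rw [map_mul, MonoidHom.mem_ker.1 hzk, mul_one]

theorem iso_of_coprime {Q : Type u} [Group Q] [Finite Q] {A : Type v} [CommGroup A]
    (hA : Cfsg.HasSchurMultiplier Q A)
    (hcop : Nat.Coprime (Nat.card (Abelianization Q)) (Nat.card A))
    (Γ₁ Γ₂ : Type u) [Group Γ₁] [Finite Γ₁] [Group Γ₂] [Finite Γ₂] (σ₁ : Γ₁ →* Q) (σ₂ : Γ₂ →* Q)
    (h₁ : Cfsg.IsStemExtension σ₁) (h₂ : Cfsg.IsStemExtension σ₂)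
    (e₁ : σ₁.ker ≃* A) (e₂ : σ₂.ker ≃* A) :
    ∃ e : Γ₁ ≃* Γ₂, σ₂.comp e.toMonoidHom = σ₁ := by
  haveI : Finite A := finite_of_hasSchurMultiplier hA
  set P := pullback σ₁ σ₂ with hP
  set p₁ := pullbackFst σ₁ σ₂ with hp₁
  set p₂ := pullbackSnd σ₁ σ₂ with hp₂
  set π : P →* Q := σ₁.comp p₁ with hπ
  have hp₁s : Function.Surjective p₁ := pullbackFst_surjective σ₁ σ₂ h₂.1
  have hp₂s : Function.Surjective p₂ := pullbackSnd_surjective σ₁ σ₂ h₁.1
  have hπs : Function.Surjective π := h₁.1.comp hp₁s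
  have hc2 : ∀ w, σ₂ (p₂ w) = π w := fun w => (pullback_comm σ₁ σ₂ w).symm
  have hcen : π.ker ≤ Subgroup.center P := by
    rintro ⟨⟨x, y⟩, hxy⟩ hk
    have hx : σ₁ x = 1 := hk
    have hy : σ₂ y = 1 := by
      have : σ₁ x = σ₂ y := hxy
      rw [← this, hx]
    have hx' := Subgroup.mem_center_iff.1 (h₁.2.1 hx)
    have hy' := Subgroup.mem_center_iff.1 (h₂.2.1 hy)
    rw [Subgroup.mem_center_iff]
    rintro ⟨⟨x', y'⟩, _⟩
    ext
    · exact hx' x'
    · exact hy' y'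
  obtain ⟨ψ, hψ⟩ := surj_of_central hA π hπs hcen
  have hR : Nat.card ↥(π.ker ⊓ commutator P) ≤ Nat.card A := Nat.card_le_card_of_surjective ψ hψ
  have hk₁ : ∀ w ∈ p₁.ker, w ^ (Nat.card A) = 1 := by
    rintro ⟨⟨x, y⟩, hxy⟩ hk
    have hx : x = 1 := hk
    subst hx
    have hy : y ∈ σ₂.ker := by
      have : σ₁ 1 = σ₂ y := hxy
      rw [MonoidHom.mem_ker, ← this, map_one]
    have h3 : (⟨y, hy⟩ : σ₂.ker) ^ (Nat.card A) = 1 := by
      rw [← Nat.card_congr e₂.toEquiv]; exact pow_card_eq_one'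
    have h4 : y ^ (Nat.card A) = 1 := congrArg Subtype.val h3
    ext
    · simp
    · simpa using h4
  have hk₂ : ∀ w ∈ p₂.ker, w ^ (Nat.card A) = 1 := by
    rintro ⟨⟨x, y⟩, hxy⟩ hk
    have hy : y = 1 := hk
    subst hy
    have hx : x ∈ σ₁.ker := by
      have : σ₁ x = σ₂ 1 := hxy
      rw [MonoidHom.mem_ker, this, map_one]
    have h3 : (⟨x, hx⟩ : σ₁.ker) ^ (Nat.card A) = 1 := by
      rw [← Nat.card_congr e₁.toEquiv]; exact pow_card_eq_one'
    have h4 : x ^ (Nat.card A) = 1 := congrArg Subtype.val h3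
    ext
    · simpa using h4
    · simp
  have b₁ := bij_on_torD π hπs hcen p₁ hp₁s σ₁ h₁ (fun _ => rfl) (Nat.card A) hR
    (Nat.card_congr e₁.toEquiv) hk₁ hcop
  have b₂ := bij_on_torD π hπs hcen p₂ hp₂s σ₂ h₂ hc2 (Nat.card A) hR
    (Nat.card_congr e₂.toEquiv) hk₂ hcop
  let E₁ := MulEquiv.ofBijective _ b₁
  let E₂ := MulEquiv.ofBijective _ b₂
  refine ⟨E₁.symm.trans E₂, ?_⟩
  ext g
  obtain ⟨d, rfl⟩ := E₁.surjective g
  show σ₂ (E₂ (E₁.symm (E₁ d))) = σ₁ (E₁ d)
  rw [MulEquiv.symm_apply_apply]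
  exact hc2 d

end Cfsg.Agent.Lib.Helper21
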