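import Mathlib
import Cfsg.Prelude.Def_KGroupFacts
import Cfsg.Agent.Lib.Helper21.Multiplier

/-!
# Twisting a stem extension by an abelian extension
-/

set_option autoImplicit false
open scoped commutatorElement

namespace Cfsg.Agent.Lib.Helper21.Twist

universe u

section

variable {Γ Q : Type u} [Group Γ] [Group Q] (σ : Γ →* Q) (χ : Γ →* ℂˣ) (ζ : ℂˣ)

/-- the fibre product of `Γ` and `ℤ` over the cyclic group generated by `ζ` -/
abbrev Hat : Subgroup (Γ × Multiplicative ℤ) := pullback χ (zpowersHom ℂˣ ζ)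

theorem mem_hat (x : Γ) (j : ℤ) : (x, Multiplicative.ofAdd j) ∈ Hat χ ζ ↔ χ x = ζ ^ j := Iff.rfl

variable {χ ζ}

theorem fst_surj (h : ∀ x, ∃ j : ℤ, χ x = ζ ^ j) :
    Function.Surjective (pullbackFst χ (zpowersHom ℂˣ ζ)) := by
  intro x
  obtain ⟨j, hj⟩ := h x
  exact ⟨⟨(x, Multiplicative.ofAdd j), hj⟩, rfl⟩

/-- elements of the commutator subgroup lift with second coordinate `0` -/
theorem lift_commutator (h : ∀ x, ∃ j : ℤ, χ x = ζ ^ j) {y : Γ} (hy : y ∈ commutator Γ) :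
    ∃ hm : (y, (1 : Multiplicative ℤ)) ∈ Hat χ ζ,
      (⟨(y, 1), hm⟩ : Hat χ ζ) ∈ commutator (Hat χ ζ) := by
  rw [← map_commutator_of_surjective _ (fst_surj h)] at hy
  obtain ⟨w, hw, rfl⟩ := hy
  have h2 : pullbackSnd χ (zpowersHom ℂˣ ζ) w = 1 := by
    have := Abelianization.commutator_subset_ker (pullbackSnd χ (zpowersHom ℂˣ ζ)) hw
    exact this
  have h3 : (w : Γ × Multiplicative ℤ) = (pullbackFst χ (zpowersHom ℂˣ ζ) w, 1) := by
    ext
    · rfl
    · exact congrArg _ h2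
  refine ⟨h3 ▸ w.2, ?_⟩
  have h4 : (⟨(pullbackFst χ (zpowersHom ℂˣ ζ) w, 1), h3 ▸ w.2⟩ : Hat χ ζ) = w := Subtype.ext h3.symm
  rw [h4]; exact hw

end

section

variable {Γ Q : Type u} [Group Γ] [Group Q] {σ : Γ →* Q} {χ : Γ →* ℂˣ} {ζ : ℂˣ} {n : ℕ} {a : Γ}

/-- the data of a twist -/
structure Data (σ : Γ →* Q) (χ : Γ →* ℂˣ) (ζ : ℂˣ) (n : ℕ) (a : Γ) : Prop where
  stem : Cfsg.IsStemExtension σ
  hχ : ∀ x, ∃ j : ℤ, χ x = ζ ^ j
  hker : ∀ x, σ x = 1 → χ x = 1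
  hord : orderOf ζ = n
  hn : n ≠ 0
  ha : σ a = 1

variable (d : Data σ χ ζ n a)
include d

theorem Data.zeta_pow : ζ ^ (n : ℤ) = 1 := by
  rw [zpow_natCast, ← d.hord, pow_orderOf_eq_one]

theorem Data.mem_of_ker {k : Γ} (hk : σ k = 1) (i : ℤ) :
    (k, Multiplicative.ofAdd ((n : ℤ) * i)) ∈ Hat χ ζ := by
  rw [mem_hat, d.hker k hk, zpow_mul, d.zeta_pow, one_zpow]

theorem Data.mem_of_ker' {k : Γ} (hk : σ k = 1) : (k, (1 : Multiplicative ℤ)) ∈ Hat χ ζ := by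
  have := d.mem_of_ker hk 0
  simpa using this

/-- the generator of the subgroup to be factored out -/
def Data.nu : Hat χ ζ := ⟨(a⁻¹, Multiplicative.ofAdd ((n : ℤ) * 1)),
  d.mem_of_ker (by rw [map_inv, d.ha, inv_one]) 1⟩

theorem Data.central_of_ker {k : Γ} (hk : σ k = 1) {j : Multiplicative ℤ} (hm : (k, j) ∈ Hat χ ζ) :
    (⟨(k, j), hm⟩ : Hat χ ζ) ∈ Subgroup.center (Hat χ ζ) := by
  have hc := Subgroup.mem_center_iff.1 (d.stem.2.1 hk)
  rw [Subgroup.mem_center_iff]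
  rintro ⟨⟨x, i⟩, _⟩
  ext
  · exact hc x
  · exact congrArg _ (mul_comm i j)

theorem Data.nu_central : d.nu ∈ Subgroup.center (Hat χ ζ) :=
  d.central_of_ker (by rw [map_inv, d.ha, inv_one]) _

/-- the subgroup to be factored out -/
def Data.NN : Subgroup (Hat χ ζ) := Subgroup.zpowers d.nu

theorem Data.NN_le_center : d.NN ≤ Subgroup.center (Hat χ ζ) := by
  rw [Data.NN, Subgroup.zpowers_le]; exact d.nu_central

instance Data.NN_normal : d.NN.Normal := by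
  constructor
  intro x hx g
  have := Subgroup.mem_center_iff.1 (d.NN_le_center hx) g
  rw [this, mul_assoc, mul_inv_cancel, mul_one]
  exact hx

theorem Data.nu_zpow (i : ℤ) :
    ((d.nu ^ i : Hat χ ζ) : Γ × Multiplicative ℤ) = (a⁻¹ ^ i, Multiplicative.ofAdd ((n : ℤ) * i)) := by
  rw [Subgroup.coe_zpow]
  ext
  · simp [Data.nu]
  · simp [Data.nu, mul_comm]

/-- the twisted group -/
abbrev Data.G2 : Type u := Hat χ ζ ⧸ d.NN

/-- the twisted extension -/
def Data.s2 : d.G2 →* Q :=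
  QuotientGroup.lift d.NN (σ.comp (pullbackFst χ (zpowersHom ℂˣ ζ))) (by
    rw [Data.NN, Subgroup.zpowers_le, MonoidHom.mem_ker]
    show σ a⁻¹ = 1
    rw [map_inv, d.ha, inv_one])

theorem Data.s2_mk (w : Hat χ ζ) : d.s2 (QuotientGroup.mk w) = σ w.1.1 := rfl

theorem Data.s2_surj : Function.Surjective d.s2 := by
  intro q
  obtain ⟨x, rfl⟩ := d.stem.1 q
  obtain ⟨w, rfl⟩ := fst_surj d.hχ x
  exact ⟨QuotientGroup.mk w, rfl⟩

/-- the embedding of the kernel -/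
def Data.iota : σ.ker →* d.G2 where
  toFun k := QuotientGroup.mk (⟨(k, 1), d.mem_of_ker' k.2⟩ : Hat χ ζ)
  map_one' := rfl
  map_mul' _ _ := rfl

theorem Data.iota_inj : Function.Injective d.iota := by
  rw [injective_iff_map_eq_one]
  intro k hk
  have h1 : (⟨(k, 1), d.mem_of_ker' k.2⟩ : Hat χ ζ) ∈ d.NN := (QuotientGroup.eq_one_iff _).1 hk
  obtain ⟨i, hi⟩ := Subgroup.mem_zpowers_iff.1 h1
  have h2 := congrArg Subtype.val hi
  rw [d.nu_zpow] at h2
  have h3 : (n : ℤ) * i = 0 := by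
    have := congrArg (fun y => Multiplicative.toAdd y.2) h2
    exact this
  have h4 : i = 0 := by
    rcases mul_eq_zero.1 h3 with h | h
    · exact absurd (by exact_mod_cast h) d.hn
    · exact h
  have h5 : a⁻¹ ^ i = (k : Γ) := congrArg (fun y => y.1) h2
  rw [h4, zpow_zero] at h5
  exact Subtype.ext h5.symm

theorem Data.ker_eq {y : d.G2} (hy : d.s2 y = 1) : ∃ k : σ.ker, d.iota k = y := by
  obtain ⟨⟨⟨x, j⟩, hw⟩, rfl⟩ := QuotientGroup.mk_surjective y
  have hx : σ x = 1 := hy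
  have h1 : ζ ^ (Multiplicative.toAdd j) = 1 := by
    have : χ x = ζ ^ (Multiplicative.toAdd j) := hw
    rw [← this, d.hker x hx]
  rw [← orderOf_dvd_iff_zpow_eq_one, d.hord] at h1
  obtain ⟨i, hi⟩ := h1
  have hk : σ (x * a ^ i) = 1 := by rw [map_mul, map_zpow, hx, d.ha, one_zpow, one_mul]
  refine ⟨⟨x * a ^ i, hk⟩, ?_⟩
  show (QuotientGroup.mk (⟨(x * a ^ i, 1), _⟩ : Hat χ ζ) : d.G2) = QuotientGroup.mk _
  rw [QuotientGroup.eq]
  refine Subgroup.mem_zpowers_iff.2 ⟨i, ?_⟩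
  apply Subtype.ext
  rw [d.nu_zpow]
  have hc := Subgroup.mem_center_iff.1 (Subgroup.zpow_mem _ (d.stem.2.1 d.ha) i) x
  ext
  · show a⁻¹ ^ i = (x * a ^ i)⁻¹ * x
    rw [mul_inv_rev, mul_assoc, inv_mul_cancel, mul_one, inv_zpow]
  · show (n : ℤ) * i = Multiplicative.toAdd ((1 : Multiplicative ℤ)⁻¹ * j)
    simp [hi]

theorem Data.iota_s2 (k : σ.ker) : d.s2 (d.iota k) = 1 := k.2

theorem Data.stem2 : Cfsg.IsStemExtension d.s2 := by
  refine ⟨d.s2_surj, ?_, ?_⟩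
  · intro y hy
    obtain ⟨k, rfl⟩ := d.ker_eq hy
    have h1 := d.central_of_ker k.2 (d.mem_of_ker' k.2)
    rw [Subgroup.mem_center_iff] at h1 ⊢
    intro z
    obtain ⟨w, rfl⟩ := QuotientGroup.mk_surjective z
    exact congrArg (QuotientGroup.mk (s := d.NN)) (h1 w)
  · intro y hy
    obtain ⟨k, rfl⟩ := d.ker_eq hy
    obtain ⟨hm, hc⟩ := lift_commutator d.hχ (d.stem.2.2 k.2)
    rw [← map_commutator_of_surjective (QuotientGroup.mk' d.NN) (QuotientGroup.mk'_surjective _)]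
    exact ⟨_, hc, rfl⟩

/-- the kernels are isomorphic -/
noncomputable def Data.kerEquiv : σ.ker ≃* d.s2.ker :=
  MulEquiv.ofBijective (d.iota.codRestrict d.s2.ker d.iota_s2) (by
    constructor
    · intro k k' h
      exact d.iota_inj (congrArg Subtype.val h)
    · rintro ⟨y, hy⟩
      obtain ⟨k, hk⟩ := d.ker_eq hy
      exact ⟨k, Subtype.ext hk⟩)

theorem Data.finite2 [Finite Γ] [Finite Q] : Finite d.G2 := by
  let t : Q → d.G2 := fun q => (d.s2_surj q).choose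
  have ht : ∀ q, d.s2 (t q) = q := fun q => (d.s2_surj q).choose_spec
  apply Finite.of_surjective (fun y : Q × σ.ker => t y.1 * d.iota y.2)
  intro y
  obtain ⟨k, hk⟩ := d.ker_eq (y := (t (d.s2 y))⁻¹ * y) (by rw [map_mul, map_inv, ht, inv_mul_cancel])
  exact ⟨(d.s2 y, k), by simp [hk]⟩

/-- no isomorphism over `Q` if `a` is not an `n`-th power -/
theorem Data.no_iso (x0 : Γ) (hx0 : χ x0 = ζ) (hx0n : x0 ^ n ∈ commutator Γ)
    (hpow : ∀ k : Γ, σ k = 1 → k ^ n ≠ a) :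
    ¬ ∃ e : Γ ≃* d.G2, d.s2.comp e.toMonoidHom = σ := by
  rintro ⟨e, he⟩
  have he' : ∀ x, d.s2 (e x) = σ x := fun x => DFunLike.congr_fun he x
  have hval : ∀ w : Hat χ ζ, d.s2 ((e w.1.1)⁻¹ * QuotientGroup.mk w) = 1 := by
    intro w
    rw [map_mul, map_inv, he', d.s2_mk, inv_mul_cancel]
  have hcen : ∀ w : Hat χ ζ, (e w.1.1)⁻¹ * QuotientGroup.mk w ∈ Subgroup.center d.G2 :=
    fun w => d.stem2.2.1 (hval w)
  let f : Hat χ ζ →* d.G2 :=
    { toFun := fun w => (e w.1.1)⁻¹ * QuotientGroup.mk w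
      map_one' := by simp
      map_mul' := by
        intro w w'
        have h1 := Subgroup.mem_center_iff.1 (hcen w) (e w'.1.1)⁻¹
        show (e (w.1.1 * w'.1.1))⁻¹ * (QuotientGroup.mk w * QuotientGroup.mk w') = _
        calc (e (w.1.1 * w'.1.1))⁻¹ * ((QuotientGroup.mk w : d.G2) * QuotientGroup.mk w')
            = ((e w'.1.1)⁻¹ * ((e w.1.1)⁻¹ * QuotientGroup.mk w)) * QuotientGroup.mk w' := by
              rw [map_mul, mul_inv_rev]; group
          _ = (((e w.1.1)⁻¹ * QuotientGroup.mk w) * (e w'.1.1)⁻¹) * QuotientGroup.mk w' := by rw [h1]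
          _ = _ := by group }
  have hf : ∀ w, f w = (e w.1.1)⁻¹ * QuotientGroup.mk w := fun _ => rfl
  have hfc : commutator (Hat χ ζ) ≤ f.ker := by
    rw [commutator_def, Subgroup.commutator_le]
    intro g₁ _ g₂ _
    rw [MonoidHom.mem_ker, map_commutatorElement, commutatorElement_eq_one_iff_commute]
    exact (Subgroup.mem_center_iff.1 (hcen g₁) (f g₂)).symm
  -- the element `u`
  let u : Hat χ ζ := ⟨(x0, Multiplicative.ofAdd 1), by rw [mem_hat, zpow_one]; exact hx0⟩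
  obtain ⟨hm, hc⟩ := lift_commutator d.hχ hx0n
  have h1 : f ⟨(x0 ^ n, 1), hm⟩ = 1 := hfc hc
  let v : Hat χ ζ := ⟨(1, Multiplicative.ofAdd ((n : ℤ) * 1)), d.mem_of_ker (map_one σ) 1⟩
  have hu : u ^ n = ⟨(x0 ^ n, 1), hm⟩ * v := by
    apply Subtype.ext
    rw [Subgroup.coe_pow]
    ext
    · simp [u, v]
    · simp [u, v]
  have hv : f v = d.iota ⟨a, d.ha⟩ := by
    rw [hf]
    show (e 1)⁻¹ * _ = _
    rw [map_one, inv_one, one_mul]
    show (QuotientGroup.mk v : d.G2) = QuotientGroup.mk _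
    rw [QuotientGroup.eq]
    refine Subgroup.mem_zpowers_iff.2 ⟨-1, ?_⟩
    apply Subtype.ext
    rw [d.nu_zpow]
    ext
    · simp [v]
    · simp [v]
  obtain ⟨k1, hk1⟩ := d.ker_eq (hval u)
  have h2 : d.iota (k1 ^ n) = d.iota ⟨a, d.ha⟩ := by
    rw [map_pow, hk1, ← hf, ← map_pow, hu, map_mul, h1, one_mul, hv]
  have h3 := congrArg Subtype.val (d.iota_inj h2)
  exact hpow k1 k1.2 (by simpa using h3)

end

theorem exists_noniso {Q : Type u} [Group Q] [Finite Q] (Γ : Type u) [Group Γ] [Finite Γ]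
    (σ : Γ →* Q) (hσ : Cfsg.IsStemExtension σ) (p : ℕ) (hp : p.Prime)
    (h1 : p ∣ Nat.card (Abelianization Q)) (h2 : p ∣ Nat.card σ.ker) :
    ∃ (Γ₂ : Type u) (_ : Group Γ₂) (_ : Finite Γ₂) (σ₂ : Γ₂ →* Q), Cfsg.IsStemExtension σ₂ ∧
      Nonempty (σ₂.ker ≃* σ.ker) ∧ ¬ ∃ e : Γ ≃* Γ₂, σ₂.comp e.toMonoidHom = σ := by
  haveI := Fact.mk hp
  set B := Abelianization Q with hB
  set n := Monoid.exponent B with hn
  have hn0 : n ≠ 0 := Monoid.exponent_ne_zero_of_finite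
  haveI : NeZero (Monoid.exponent B) := ⟨hn0⟩
  obtain ⟨d0⟩ := CommGroup.monoidHom_mulEquiv_of_hasEnoughRootsOfUnity B ℂ
  obtain ⟨χ0, hχ0⟩ := Monoid.exists_orderOf_eq_exponent
    (G := B →* ℂˣ) (Monoid.exponent_ne_zero.1 (by
      rw [Monoid.exponent_eq_of_mulEquiv d0]; exact hn0))
  rw [Monoid.exponent_eq_of_mulEquiv d0] at hχ0
  haveI : Finite χ0.range := Finite.of_surjective χ0.rangeRestrict χ0.rangeRestrict_surjective
  obtain ⟨⟨ζ, ⟨b0, hb0⟩⟩, hgen⟩ := IsCyclic.exists_generator (α := χ0.range)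
  have hpowers : ∀ y : B, ∃ j : ℤ, χ0 y = ζ ^ j := by
    intro y
    obtain ⟨j, hj⟩ := Subgroup.mem_zpowers_iff.1 (hgen ⟨χ0 y, ⟨y, rfl⟩⟩)
    refine ⟨j, ?_⟩
    have := congrArg Subtype.val hj
    simpa using this.symm
  have hord : orderOf ζ = n := by
    apply Nat.dvd_antisymm
    · apply orderOf_dvd_of_pow_eq_one
      rw [← hb0, ← map_pow, hn, Monoid.pow_exponent_eq_one, map_one]
    · rw [hn, ← hχ0]
      apply orderOf_dvd_of_pow_eq_one
      apply MonoidHom.ext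
      intro y
      apply Units.ext
      obtain ⟨j, hj⟩ := hpowers y
      have : (χ0 y) ^ orderOf ζ = 1 := by
        rw [hj, ← zpow_natCast, ← zpow_mul, mul_comm, zpow_mul, zpow_natCast, pow_orderOf_eq_one,
          one_zpow]
      simpa using congrArg Units.val this
  have hpn : p ∣ n := by
    obtain ⟨b, hb⟩ := exists_prime_orderOf_dvd_card' (G := B) p h1
    rw [← hb]; exact Monoid.order_dvd_exponent b
  obtain ⟨q0, hq0⟩ := QuotientGroup.mk_surjective b0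
  obtain ⟨x0, hx0⟩ := hσ.1 q0
  set χ : Γ →* ℂˣ := χ0.comp ((Abelianization.of (G := Q)).comp σ) with hχ
  have hx0χ : χ x0 = ζ := by
    rw [← hb0, ← hq0, ← hx0]; rfl
  have hx0n : x0 ^ n ∈ commutator Γ := by
    have e1 : Abelianization.of (σ (x0 ^ n)) = 1 := by
      rw [map_pow, map_pow, hx0]
      have : (Abelianization.of q0 : B) = b0 := hq0
      rw [this, hn, Monoid.pow_exponent_eq_one]
    have e2 : σ (x0 ^ n) ∈ commutator Q := (QuotientGroup.eq_one_iff (N := commutator Q) _).1 e1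
    rw [← map_commutator_of_surjective σ hσ.1] at e2
    obtain ⟨c, hc, hc2⟩ := e2
    have e3 : x0 ^ n * c⁻¹ ∈ commutator Γ := by
      apply hσ.2.2
      rw [MonoidHom.mem_ker, map_mul, map_inv, hc2, mul_inv_cancel]
    have e4 : x0 ^ n = (x0 ^ n * c⁻¹) * c := by group
    rw [e4]; exact Subgroup.mul_mem _ e3 hc
  -- the element `a`
  obtain ⟨k0, hk0⟩ := exists_prime_orderOf_dvd_card' (G := σ.ker) p h2
  have hninj : ¬ Function.Injective (fun k : σ.ker => k ^ n) := by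
    intro hinj
    have e1 : k0 ^ n = (1 : σ.ker) ^ n := by
      rw [one_pow]
      exact orderOf_dvd_iff_pow_eq_one.1 (hk0 ▸ hpn)
    have e2 : k0 = 1 := hinj e1
    rw [e2, orderOf_one] at hk0
    exact hp.one_lt.ne hk0
  rw [Finite.injective_iff_surjective] at hninj
  simp only [Function.Surjective, not_forall, not_exists] at hninj
  obtain ⟨a, ha⟩ := hninj
  have d : Data σ χ ζ n (a : Γ) :=
    { stem := hσ
      hχ := fun x => hpowers _
      hker := fun x hx => by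
        show χ0 (Abelianization.of (σ x)) = 1
        rw [hx, map_one, map_one]
      hord := hord
      hn := hn0
      ha := a.2 }
  refine ⟨d.G2, inferInstance, d.finite2, d.s2, d.stem2, ⟨d.kerEquiv.symm⟩, ?_⟩
  apply d.no_iso x0 hx0χ hx0n
  intro k hk hka
  exact ha ⟨k, hk⟩ (Subtype.ext hka)

end Cfsg.Agent.Lib.Helper21.Twist
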