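import Mathlib
import Cfsg.Agent.Lib.Helper21.Central

set_option autoImplicit false
open scoped commutatorElement

namespace Cfsg.Agent.Lib.Helper21

/-- A cyclic group generated by `c` with `c ^ n = 1` is an image of `ZMod n`. -/
theorem exists_surj_zmod_of_zpowers {K : Type*} [Group K] (c : K) (n : ℕ) (hc : c ^ n = 1)
    (hgen : ∀ k : K, k ∈ Subgroup.zpowers c) :
    ∃ π : Multiplicative (ZMod n) →* K, Function.Surjective π := by
  let f : ℤ →+ Additive K := zmultiplesHom (Additive K) (Additive.ofMul c)
  have hf : f n = 0 := by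
    simp only [f, zmultiplesHom_apply, natCast_zsmul]
    rw [← ofMul_pow, hc]; rfl
  refine ⟨AddMonoidHom.toMultiplicativeLeft (ZMod.lift n ⟨f, hf⟩), ?_⟩
  intro k
  obtain ⟨i, rfl⟩ := hgen k
  refine ⟨Multiplicative.ofAdd (i : ZMod n), ?_⟩
  show Additive.toMul (ZMod.lift n ⟨f, hf⟩ (i : ZMod n)) = c ^ i
  rw [ZMod.lift_coe]
  simp [f]

/-- If the generators commute modulo the normal subgroup `H`, then `Γ' ≤ H`. -/
theorem commutator_le_of_generators {Γ : Type*} [Group Γ] (X : Set Γ) (hX : Subgroup.closure X = ⊤)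
    (H : Subgroup Γ) [H.Normal] (h : ∀ x ∈ X, ∀ y ∈ X, ⁅x, y⁆ ∈ H) : commutator Γ ≤ H := by
  have hcl : Subgroup.closure ((QuotientGroup.mk' H) '' X) = ⊤ := by
    rw [← MonoidHom.map_closure, hX, ← MonoidHom.range_eq_map,
      MonoidHom.range_eq_top.mpr (QuotientGroup.mk'_surjective H)]
  have hcomm : IsMulCommutative (Subgroup.closure ((QuotientGroup.mk' H) '' X)) := by
    apply Subgroup.isMulCommutative_closure
    rintro _ ⟨x, hx, rfl⟩ _ ⟨y, hy, rfl⟩
    rw [← commutatorElement_eq_one_iff_mul_comm, ← map_commutatorElement]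
    exact (QuotientGroup.eq_one_iff _).mpr (h x hx y hy)
  rw [commutator_def, Subgroup.commutator_le]
  intro a _ b _
  rw [← QuotientGroup.eq_one_iff, ← QuotientGroup.mk'_apply, map_commutatorElement,
    commutatorElement_eq_one_iff_mul_comm]
  have ha : QuotientGroup.mk' H a ∈ Subgroup.closure ((QuotientGroup.mk' H) '' X) := by rw [hcl]; trivial
  have hb : QuotientGroup.mk' H b ∈ Subgroup.closure ((QuotientGroup.mk' H) '' X) := by rw [hcl]; trivial
  have := mul_comm' (⟨_, ha⟩ : Subgroup.closure ((QuotientGroup.mk' H) '' X)) ⟨_, hb⟩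
  exact congrArg Subtype.val this

/-- If `σ` maps the closure of `X` onto the target, then `X` and the kernel generate. -/
theorem closure_union_ker_eq_top {Γ G : Type*} [Group Γ] [Group G] (σ : Γ →* G) (X : Set Γ)
    (hX : Subgroup.closure (σ '' X) = ⊤) : Subgroup.closure (X ∪ (σ.ker : Set Γ)) = ⊤ := by
  rw [Subgroup.closure_union, Subgroup.closure_eq, ← Subgroup.comap_map_eq, MonoidHom.map_closure, hX,
    Subgroup.comap_top]

/-- A subgroup `zpowers c` is normal as soon as the generators conjugate `c` into `zpowers c`. -/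
theorem zpowers_normal_of_generators {Γ : Type*} [Group Γ] (X : Set Γ) (hX : Subgroup.closure X = ⊤)
    (c : Γ) (h : ∀ x ∈ X, x * c * x⁻¹ ∈ Subgroup.zpowers c ∧ x⁻¹ * c * x ∈ Subgroup.zpowers c) :
    (Subgroup.zpowers c).Normal := by
  -- the set of `g` with `g c g⁻¹ , g⁻¹ c g ∈ ⟨c⟩` conjugating `⟨c⟩` into itself
  have key : ∀ g : Γ, (∀ z ∈ Subgroup.zpowers c, g * z * g⁻¹ ∈ Subgroup.zpowers c) := by
    intro g
    have hg : g ∈ Subgroup.closure X := by rw [hX]; trivial
    induction hg using Subgroup.closure_induction with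
    | mem x hx =>
      rintro _ ⟨i, rfl⟩
      have : x * c ^ i * x⁻¹ = (x * c * x⁻¹) ^ i := by
        rw [conj_zpow]
      show x * c ^ i * x⁻¹ ∈ _
      rw [this]
      exact Subgroup.zpow_mem _ (h x hx).1 i
    | one => intro z hz; simpa using hz
    | mul a b _ _ iha ihb =>
      intro z hz
      have := iha _ (ihb z hz)
      have h2 : a * b * z * (a * b)⁻¹ = a * (b * z * b⁻¹) * a⁻¹ := by group
      rw [h2]; exact this
    | inv a ha iha =>
      -- need a separate induction for inverses
      intro z hz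
      have hfin : ∀ g : Γ, g ∈ Subgroup.closure X →
          ∀ z ∈ Subgroup.zpowers c, g⁻¹ * z * g ∈ Subgroup.zpowers c := by
        intro g hg
        induction hg using Subgroup.closure_induction with
        | mem x hx =>
          rintro _ ⟨i, rfl⟩
          have : x⁻¹ * c ^ i * x = (x⁻¹ * c * x) ^ i := by
            have := conj_zpow (a := x⁻¹) (b := c) (i := i)
            simpa using this.symm
          show x⁻¹ * c ^ i * x ∈ _
          rw [this]
          exact Subgroup.zpow_mem _ (h x hx).2 i
        | one => intro z hz; simpa using hz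
        | mul a b _ _ iha ihb =>
          intro z hz
          have := ihb _ (iha z hz)
          have h2 : (a * b)⁻¹ * z * (a * b) = b⁻¹ * (a⁻¹ * z * a) * b := by group
          rw [h2]; exact this
        | inv a ha iha' =>
          intro z hz
          -- (a⁻¹)⁻¹ z a⁻¹ = a z a⁻¹ : handled by a symmetric argument below
          have hsym : ∀ g : Γ, g ∈ Subgroup.closure X →
              (∀ z ∈ Subgroup.zpowers c, g * z * g⁻¹ ∈ Subgroup.zpowers c) ∧
              (∀ z ∈ Subgroup.zpowers c, g⁻¹ * z * g ∈ Subgroup.zpowers c) := by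
            intro g hg
            induction hg using Subgroup.closure_induction with
            | mem x hx =>
              constructor
              · rintro _ ⟨i, rfl⟩
                show x * c ^ i * x⁻¹ ∈ _
                rw [← conj_zpow]
                exact Subgroup.zpow_mem _ (h x hx).1 i
              · rintro _ ⟨i, rfl⟩
                have : x⁻¹ * c ^ i * x = (x⁻¹ * c * x) ^ i := by
                  have := conj_zpow (a := x⁻¹) (b := c) (i := i)
                  simpa using this.symm
                show x⁻¹ * c ^ i * x ∈ _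
                rw [this]
                exact Subgroup.zpow_mem _ (h x hx).2 i
            | one => constructor <;> (intro z hz; simpa using hz)
            | mul a b _ _ iha ihb =>
              constructor
              · intro z hz
                have := iha.1 _ (ihb.1 z hz)
                have h2 : a * b * z * (a * b)⁻¹ = a * (b * z * b⁻¹) * a⁻¹ := by group
                rw [h2]; exact this
              · intro z hz
                have := ihb.2 _ (iha.2 z hz)
                have h2 : (a * b)⁻¹ * z * (a * b) = b⁻¹ * (a⁻¹ * z * a) * b := by group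
                rw [h2]; exact this
            | inv a _ iha =>
              constructor
              · intro z hz; simpa using iha.2 z hz
              · intro z hz; simpa using iha.1 z hz
          simpa using (hsym a ha).1 z hz
      simpa using hfin a ha z hz
  exact ⟨fun z hz g => key g z hz⟩

section class2
variable {Γ : Type*} [Group Γ]

theorem comm_mul_left_of_central {x y z : Γ} (h : ⁅y, z⁆ ∈ Subgroup.center Γ) :
    ⁅x * y, z⁆ = ⁅x, z⁆ * ⁅y, z⁆ := by
  have h1 := Subgroup.mem_center_iff.mp h x
  have h2 := Subgroup.mem_center_iff.mp h (x * z * x⁻¹ * z⁻¹)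
  simp only [commutatorElement_def] at *
  calc x * y * z * (x * y)⁻¹ * z⁻¹ = (x * (y * z * y⁻¹ * z⁻¹)) * z * x⁻¹ * z⁻¹ := by group
    _ = ((y * z * y⁻¹ * z⁻¹) * x) * z * x⁻¹ * z⁻¹ := by rw [h1]
    _ = (y * z * y⁻¹ * z⁻¹) * (x * z * x⁻¹ * z⁻¹) := by group
    _ = _ := by rw [h2]

theorem comm_mul_right_of_central {x y z : Γ} (h : ⁅x, z⁆ ∈ Subgroup.center Γ) :
    ⁅x, y * z⁆ = ⁅x, y⁆ * ⁅x, z⁆ := by
  have h1 := Subgroup.mem_center_iff.mp h y
  simp only [commutatorElement_def] at *
  calc x * (y * z) * x⁻¹ * (y * z)⁻¹ = x * y * x⁻¹ * ((x * z * x⁻¹ * z⁻¹) * y⁻¹) := by group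
    _ = x * y * x⁻¹ * (y⁻¹ * (y * (x * z * x⁻¹ * z⁻¹)) * y⁻¹) := by group
    _ = x * y * x⁻¹ * (y⁻¹ * ((x * z * x⁻¹ * z⁻¹) * y) * y⁻¹) := by rw [h1]
    _ = _ := by group

theorem comm_pow_right_of_central {x y : Γ} (h : ⁅x, y⁆ ∈ Subgroup.center Γ) (n : ℕ) :
    ⁅x, y ^ n⁆ = ⁅x, y⁆ ^ n := by
  induction n with
  | zero => simp
  | succ n ih => rw [pow_succ, comm_mul_right_of_central h, ih, pow_succ]

theorem comm_pow_left_of_central {x y : Γ} (h : ⁅x, y⁆ ∈ Subgroup.center Γ) (n : ℕ) :
    ⁅x ^ n, y⁆ = ⁅x, y⁆ ^ n := by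
  induction n with
  | zero => simp
  | succ n ih => rw [pow_succ, comm_mul_left_of_central h, ih, pow_succ]

end class2

end Cfsg.Agent.Lib.Helper21
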