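import Mathlib
import Cfsg.Agent.Lib.Helper21.Gens

set_option autoImplicit false
open scoped commutatorElement

namespace Cfsg.Agent.Lib.Helper21

section inverting
variable {Γ : Type*} [Group Γ] (K : Subgroup Γ) (hK : K ≤ Subgroup.center Γ) (a x k₀ : Γ) (hk₀ : k₀ ∈ K)
  (hx : x * a * x⁻¹ = a⁻¹ * k₀)

include hK hk₀ hx

theorem inverting_conj : x * (a⁻¹ * a⁻¹ * k₀) * x⁻¹ = (a⁻¹ * a⁻¹ * k₀)⁻¹ := by
  have hc : ∀ g, g * k₀ = k₀ * g := Subgroup.mem_center_iff.mp (hK hk₀)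
  have hci : ∀ g, g * k₀⁻¹ = k₀⁻¹ * g := Subgroup.mem_center_iff.mp ((Subgroup.center Γ).inv_mem (hK hk₀))
  have h1 : x * a⁻¹ * x⁻¹ = k₀⁻¹ * a := by
    have : x * a⁻¹ * x⁻¹ = (x * a * x⁻¹)⁻¹ := by group
    rw [this, hx]; group
  calc x * (a⁻¹ * a⁻¹ * k₀) * x⁻¹ = (x * a⁻¹ * x⁻¹) * (x * a⁻¹ * x⁻¹) * (x * k₀) * x⁻¹ := by group
    _ = (k₀⁻¹ * a) * (k₀⁻¹ * a) * (k₀ * x) * x⁻¹ := by rw [h1, hc x]
    _ = k₀⁻¹ * (a * k₀⁻¹) * (a * k₀) := by group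
    _ = k₀⁻¹ * (k₀⁻¹ * a) * (k₀ * a) := by rw [hci a, hc a]
    _ = k₀⁻¹ * k₀⁻¹ * (a * k₀) * a := by group
    _ = k₀⁻¹ * k₀⁻¹ * (k₀ * a) * a := by rw [hc a]
    _ = _ := by simp [mul_assoc]

theorem inverting_comm_a : a * (a⁻¹ * a⁻¹ * k₀) * a⁻¹ = a⁻¹ * a⁻¹ * k₀ := by
  have hc : ∀ g, g * k₀ = k₀ * g := Subgroup.mem_center_iff.mp (hK hk₀)
  calc a * (a⁻¹ * a⁻¹ * k₀) * a⁻¹ = a⁻¹ * (k₀ * a⁻¹) := by group
    _ = a⁻¹ * (a⁻¹ * k₀) := by rw [hc a⁻¹]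
    _ = _ := by group

theorem inverting_commutator_eq : ⁅x, a⁆ = a⁻¹ * a⁻¹ * k₀ := by
  have hc : ∀ g, g * k₀ = k₀ * g := Subgroup.mem_center_iff.mp (hK hk₀)
  rw [commutatorElement_def, hx, mul_assoc, ← hc a⁻¹, mul_assoc]

theorem inverting_commutator_le (hgen : Subgroup.closure (({a, x} : Set Γ) ∪ (K : Set Γ)) = ⊤) :
    commutator Γ ≤ Subgroup.zpowers (a⁻¹ * a⁻¹ * k₀) := by
  set c := a⁻¹ * a⁻¹ * k₀ with hcdef
  have hxc : x * c * x⁻¹ = c⁻¹ := inverting_conj K hK a x k₀ hk₀ hx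
  have hac : a * c * a⁻¹ = c := inverting_comm_a K hK a x k₀ hk₀ hx
  have hcomm : ⁅x, a⁆ = c := inverting_commutator_eq K hK a x k₀ hk₀ hx
  have hnorm : (Subgroup.zpowers c).Normal := by
    apply zpowers_normal_of_generators _ hgen
    rintro g ((hg | hg) | hg)
    · rw [hg]
      refine ⟨by rw [hac]; exact Subgroup.mem_zpowers c, ?_⟩
      have : a⁻¹ * c * a = c := by
        calc a⁻¹ * c * a = a⁻¹ * (a * c * a⁻¹) * a := by rw [hac]
          _ = c := by group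
      rw [this]; exact Subgroup.mem_zpowers c
    · rw [hg]
      refine ⟨by rw [hxc]; exact Subgroup.inv_mem _ (Subgroup.mem_zpowers c), ?_⟩
      have : x⁻¹ * c * x = c⁻¹ := by
        calc x⁻¹ * c * x = x⁻¹ * (c⁻¹)⁻¹ * x := by rw [inv_inv]
          _ = x⁻¹ * (x * c * x⁻¹)⁻¹ * x := by rw [hxc]
          _ = c⁻¹ := by group
      rw [this]; exact Subgroup.inv_mem _ (Subgroup.mem_zpowers c)
    · have hgc := Subgroup.mem_center_iff.mp (hK hg)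
      constructor
      · have : g * c * g⁻¹ = c := by rw [← hgc c]; group
        rw [this]; exact Subgroup.mem_zpowers c
      · have : g⁻¹ * c * g = c := by rw [mul_assoc, hgc c]; group
        rw [this]; exact Subgroup.mem_zpowers c
  apply commutator_le_of_generators _ hgen
  have hk1 : ∀ k ∈ K, ∀ y : Γ, ⁅k, y⁆ ∈ Subgroup.zpowers c := by
    intro k hk y
    have : ⁅k, y⁆ = 1 := by
      rw [commutatorElement_eq_one_iff_mul_comm]
      exact (Subgroup.mem_center_iff.mp (hK hk) y).symm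
    rw [this]; exact Subgroup.one_mem _
  have hk2 : ∀ k ∈ K, ∀ y : Γ, ⁅y, k⁆ ∈ Subgroup.zpowers c := by
    intro k hk y
    have : ⁅y, k⁆ = 1 := by
      rw [commutatorElement_eq_one_iff_mul_comm]
      exact (Subgroup.mem_center_iff.mp (hK hk) y)
    rw [this]; exact Subgroup.one_mem _
  rintro g (hg | hg) y (hy | hy)
  · have h_xa : ⁅x, a⁆ ∈ Subgroup.zpowers c := by rw [hcomm]; exact Subgroup.mem_zpowers _
    have h_ax : ⁅a, x⁆ ∈ Subgroup.zpowers c := by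
      rw [← commutatorElement_inv x a, hcomm]; exact Subgroup.inv_mem _ (Subgroup.mem_zpowers _)
    have h_aa : ⁅a, a⁆ ∈ Subgroup.zpowers c := by simp
    have h_xx : ⁅x, x⁆ ∈ Subgroup.zpowers c := by simp
    rcases hg with hg | hg <;> rcases hy with hy | hy <;> rw [hg, hy] <;> assumption
  · exact hk2 y hy g
  · exact hk1 g hg y
  · exact hk1 g hg y

theorem inverting_pow_eq_one (n : ℕ) (hw : x * a ^ n * x⁻¹ = a ^ n) : (a⁻¹ * a⁻¹ * k₀) ^ n = 1 := by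
  have hc : ∀ g, g * k₀ = k₀ * g := Subgroup.mem_center_iff.mp (hK hk₀)
  have h1 : x * a ^ n * x⁻¹ = (a⁻¹) ^ n * k₀ ^ n := by
    rw [← conj_pow, hx, (show Commute a⁻¹ k₀ from hc a⁻¹).mul_pow]
  have h2 : Commute (a⁻¹ * a⁻¹) k₀ := hc _
  rw [h2.mul_pow, (Commute.refl a⁻¹).mul_pow, mul_assoc, ← h1, hw]
  simp

end inverting

end Cfsg.Agent.Lib.Helper21
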