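import Mathlib
import Cfsg.Prelude.Def_KGroupFacts
import Cfsg.Agent.Lib.Helper21.Inverting
import Cfsg.Agent.Lib.Helper21.Stem

set_option autoImplicit false
open scoped commutatorElement

namespace Cfsg.Agent.Lib.Helper21

open DihedralGroup

theorem dihedral_closure (n : ℕ) [NeZero n] :
    Subgroup.closure ({r 1, sr 0} : Set (DihedralGroup n)) = ⊤ := by
  rw [eq_top_iff]
  have h1 : (r 1 : DihedralGroup n) ∈ Subgroup.closure ({r 1, sr 0} : Set (DihedralGroup n)) :=
    Subgroup.subset_closure (by simp)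
  have h2 : (sr 0 : DihedralGroup n) ∈ Subgroup.closure ({r 1, sr 0} : Set (DihedralGroup n)) :=
    Subgroup.subset_closure (by simp)
  have hr : ∀ i : ZMod n, (r i : DihedralGroup n) ∈ Subgroup.closure ({r 1, sr 0} : Set (DihedralGroup n)) := by
    intro i
    have : (r i : DihedralGroup n) = (r 1) ^ i.val := by simp
    rw [this]; exact Subgroup.pow_mem _ h1 _
  rintro (i | i) _
  · exact hr i
  · have : (sr i : DihedralGroup n) = sr 0 * r i := by simp
    rw [this]; exact Subgroup.mul_mem _ h2 (hr i)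

/-- In a stem extension of a dihedral group, the kernel consists of powers `c ^ j` of an element `c` with
`c ^ n = 1`, `σ c = r (-2)`. -/
theorem dihedral_stem (n : ℕ) [NeZero n] {Γ : Type*} [Group Γ] (σ : Γ →* DihedralGroup n)
    (hσ : Cfsg.IsStemExtension σ) :
    ∃ c : Γ, c ^ n = 1 ∧ σ c = r (-2) ∧ σ.ker ≤ Subgroup.zpowers c := by
  obtain ⟨hs, hc, hd⟩ := hσ
  obtain ⟨a, ha⟩ := hs (r 1)
  obtain ⟨x, hx⟩ := hs (sr 0)
  have hk₀ : a * (x * a * x⁻¹) ∈ σ.ker := by
    rw [MonoidHom.mem_ker]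
    simp [ha, hx]
  have hxa : x * a * x⁻¹ = a⁻¹ * (a * (x * a * x⁻¹)) := by group
  have hgen : Subgroup.closure (({a, x} : Set Γ) ∪ (σ.ker : Set Γ)) = ⊤ := by
    apply closure_union_ker_eq_top
    rw [Set.image_pair, ha, hx]
    exact dihedral_closure n
  refine ⟨a⁻¹ * a⁻¹ * (a * (x * a * x⁻¹)), ?_, ?_, ?_⟩
  · apply inverting_pow_eq_one σ.ker hc a x _ hk₀ hxa
    have : a ^ n ∈ σ.ker := by
      rw [MonoidHom.mem_ker, map_pow, ha]; simp
    rw [Subgroup.mem_center_iff.mp (hc this) x]; group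
  · simp only [map_mul, map_inv, ha, hx]
    simp
    ring
  · exact hd.trans (inverting_commutator_le σ.ker hc a x _ hk₀ hxa hgen)

end Cfsg.Agent.Lib.Helper21
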