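import Mathlib

/-!
A quotient of a finite abelian group embeds into it (by duality).
-/

set_option autoImplicit false

namespace Cfsg.Agent.Lib.Helper21

theorem exists_injective_of_surjective_comm {B D : Type*} [CommGroup B] [Finite B] [CommGroup D]
    (π : B →* D) (hπ : Function.Surjective π) : ∃ ι : D →* B, Function.Injective ι := by
  haveI : Finite D := Finite.of_surjective π hπ
  haveI : NeZero (Monoid.exponent B) := ⟨Monoid.exponent_ne_zero_of_finite⟩
  haveI : NeZero (Monoid.exponent D) := ⟨Monoid.exponent_ne_zero_of_finite⟩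
  obtain ⟨eB⟩ := CommGroup.monoidHom_mulEquiv_of_hasEnoughRootsOfUnity B ℂ
  obtain ⟨eD⟩ := CommGroup.monoidHom_mulEquiv_of_hasEnoughRootsOfUnity D ℂ
  let d : (D →* ℂˣ) →* (B →* ℂˣ) :=
    { toFun := fun χ => χ.comp π
      map_one' := rfl
      map_mul' := fun _ _ => rfl }
  have hd : Function.Injective d := by
    intro χ ψ h
    exact (MonoidHom.cancel_right hπ).1 h
  exact ⟨(eB.toMonoidHom.comp d).comp eD.symm.toMonoidHom,
    (eB.injective.comp hd).comp eD.symm.injective⟩

theorem exists_injective_of_surjective {B D : Type*} [CommGroup B] [Finite B] [Group D]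
    (π : B →* D) (hπ : Function.Surjective π) : ∃ ι : D →* B, Function.Injective ι := by
  letI : CommGroup D :=
    { (inferInstance : Group D) with
      mul_comm := by
        intro a b
        obtain ⟨x, rfl⟩ := hπ a
        obtain ⟨y, rfl⟩ := hπ b
        rw [← map_mul, ← map_mul, mul_comm] }
  exact exists_injective_of_surjective_comm π hπ

end Cfsg.Agent.Lib.Helper21
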