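import Cfsg.Agent.Lib.Helper21.J1Simple
import Cfsg.Agent.Lib.Helper28.Schur4

/-!
The Schur multiplier of the explicit Janko group `J₁ ≤ GL₇(11)` is trivial.
-/

set_option autoImplicit false

namespace Cfsg.Agent.Lib.Helper21.J1

open scoped MatrixGroups
open scoped commutatorElement
open Cfsg.Spor Cfsg.Agent.Lib.Helper28

def τ1 : JG := ⟨wordG l1, word_mem l1⟩
def τ2 : JG := ⟨wordG l2, word_mem l2⟩
def τ3 : JG := ⟨wordG l3, word_mem l3⟩

/-- the eight elements of the elementary abelian subgroup -/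
def ψ (x : Fin 2 × Fin 2 × Fin 2) : JG := τ1 ^ (x.1 : ℕ) * (τ2 ^ (x.2.1 : ℕ) * τ3 ^ (x.2.2 : ℕ))

theorem ψ_rep (z : Fin 2 × Fin 2 × Fin 2) : Rep (code z) (((ψ z : JG) : GL (Fin 7) (ZMod 11)) : Mat) := by
  have := ((word_rep l1).pw z.1).mul (((word_rep l2).pw z.2.1).mul ((word_rep l3).pw z.2.2))
  simpa [ψ, code, τ1, τ2, τ3] using this

theorem ψ_inj : Function.Injective ψ := by
  intro x y h
  apply code_inj
  rw [(ψ_rep x).2, (ψ_rep y).2, h]

/-- the subgroup of order 8 inside `J₁` -/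
def E' : Subgroup JG := E8.subgroupOf J1

theorem card_E8 : Nat.card E8 = 8 := by
  have hp : IsPGroup 2 E8 := fun g => ⟨1, by
    have := E8_sq g g.2
    ext1
    simpa using this⟩
  have : Fact (Nat.Prime 2) := ⟨by norm_num⟩
  obtain ⟨n, hn⟩ := IsPGroup.iff_card.1 hp
  have h8 := eight_dvd_E8
  have hd : Nat.card E8 ∣ 175560 := by
    rw [← card_J1]; exact Subgroup.card_dvd_of_le E8_le
  rw [hn] at h8 hd ⊢
  have h3 : n ≤ 3 := by
    by_contra hlt
    have : (2 : ℕ) ^ 4 ∣ 2 ^ n := pow_dvd_pow 2 (by omega)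
    have := this.trans hd
    norm_num at this
  have h3' : 3 ≤ n := by
    by_contra hlt
    have h2 : n ≤ 2 := by omega
    have := Nat.le_of_dvd (by positivity) h8
    have := Nat.pow_le_pow_right (show 0 < 2 by norm_num) h2
    omega
  have : n = 3 := le_antisymm h3 h3'
  rw [this]; norm_num

theorem card_E' : Nat.card E' = 8 := by
  rw [← card_E8]
  exact Nat.card_congr (Subgroup.subgroupOfEquivOfLe E8_le).toEquiv

theorem ψ_mem (x : Fin 2 × Fin 2 × Fin 2) : ψ x ∈ E' := by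
  have m1 : wordG l1 ∈ E8 := Subgroup.subset_closure (by simp)
  have m2 : wordG l2 ∈ E8 := Subgroup.subset_closure (by simp)
  have m3 : wordG l3 ∈ E8 := Subgroup.subset_closure (by simp)
  show ((ψ x : JG) : GL (Fin 7) (ZMod 11)) ∈ E8
  exact mul_mem (pow_mem m1 _) (mul_mem (pow_mem m2 _) (pow_mem m3 _))

theorem E'_cases (g : JG) (hg : g ∈ E') : ∃ x, g = ψ x := by
  let ψ' : Fin 2 × Fin 2 × Fin 2 → E' := fun x => ⟨ψ x, ψ_mem x⟩
  have hinj : Function.Injective ψ' := fun x y h => ψ_inj (congrArg Subtype.val h)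
  have hb := hinj.bijective_of_nat_card_le (by rw [card_E']; simp [Nat.card_eq_fintype_card])
  obtain ⟨x, hx⟩ := hb.2 ⟨g, hg⟩
  exact ⟨x, (congrArg Subtype.val hx).symm⟩

theorem conj_chk : ∀ x : Fin 2 × Fin 2 × Fin 2, x ≠ 0 →
    ∃ k < 7, mul (pw Xp k) (wordP l1) = mul (code x) (pw Xp k) := by decide +kernel

theorem ψ_conj (x : Fin 2 × Fin 2 × Fin 2) (hx : x ≠ 0) : ∃ c : JG, ψ x = c * τ1 * c⁻¹ := by
  obtain ⟨k, -, hk⟩ := conj_chk x hx
  refine ⟨x0 ^ k, ?_⟩
  rw [eq_mul_inv_iff_mul_eq]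
  apply Subtype.ext
  have h1 : Rep (mul (pw Xp k) (wordP l1)) (((x0 ^ k * τ1 : JG) : GL (Fin 7) (ZMod 11)) : Mat) := by
    have := (repX.pw k).mul (word_rep l1)
    simpa [x0, τ1] using this
  have h2 : Rep (mul (code x) (pw Xp k)) (((ψ x * x0 ^ k : JG) : GL (Fin 7) (ZMod 11)) : Mat) := by
    have := (ψ_rep x).mul (repX.pw k)
    simpa [x0] using this
  rw [hk] at h1
  exact gl_ext h2 h1

theorem two_false {Γ : Type} [Group Γ] [Finite Γ] (σ : Γ →* JG) (hσ : IsStemExtension σ)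
    (hcard : Nat.card σ.ker = 2) : False := by
  have h : CExt σ := ⟨hσ.1, hσ.2.1⟩
  obtain ⟨z, hz, -, hzz, hall⟩ := CExt.exists_two (σ := σ) hcard
  have hk2 : ∀ x ∈ σ.ker, x * x = 1 := by
    intro x hx
    rcases hall x hx with rfl | rfl
    · simp
    · exact hzz
  have e1 : τ1 = ψ (1, 0, 0) := by simp [ψ]
  have e2 : τ2 = ψ (0, 1, 0) := by simp [ψ]
  have e3 : τ3 = ψ (0, 0, 1) := by simp [ψ]
  have e12 : τ1 * τ2 = ψ (1, 1, 0) := by simp [ψ]
  have e13 : τ1 * τ3 = ψ (1, 0, 1) := by simp [ψ]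
  have e23 : τ2 * τ3 = ψ (0, 1, 1) := by simp [ψ]
  have e123 : τ1 * (τ2 * τ3) = ψ (1, 1, 1) := by simp [ψ]
  have s1 : τ1 * τ1 = 1 := by
    apply Subtype.ext
    have := t_sq l1 inv_rel.1
    rw [pow_two] at this
    exact this
  have c12 : τ1 * τ2 = τ2 * τ1 := Subtype.ext (t_comm l1 l2 inv_rel.2.2.2.1)
  have c13 : τ1 * τ3 = τ3 * τ1 := Subtype.ext (t_comm l1 l3 inv_rel.2.2.2.2.1)
  have cj : ∀ (t : JG) (x : Fin 2 × Fin 2 × Fin 2), x ≠ 0 → t = ψ x → ∃ c : JG, t = c * τ1 * c⁻¹ := by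
    intro t x hx ht
    obtain ⟨c, hc⟩ := ψ_conj x hx
    exact ⟨c, ht.trans hc⟩
  have key := h.sq_eq_one_of_conj hk2 τ1 τ1 τ2 τ3 s1 c12 c13
    (cj _ _ (by decide) e1) (cj _ _ (by decide) e2) (cj _ _ (by decide) e3)
    (cj _ _ (by decide) e12) (cj _ _ (by decide) e13) (cj _ _ (by decide) e23)
    (cj _ _ (by decide) e123)
  have hsq : ∀ a : Γ, σ a ∈ E' → a * a = 1 := by
    intro a ha
    obtain ⟨x, hx⟩ := E'_cases _ ha
    by_cases h0 : x = 0
    · apply hk2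
      rw [MonoidHom.mem_ker, hx, h0]
      simp [ψ]
    · exact key a (hx ▸ ψ_conj x h0)
  refine stem_prime_false σ hσ (p := 2) (by norm_num) hcard E' 3 21945 (by rw [card_J1]; norm_num) (by norm_num)
    (by rw [card_E']; norm_num) ?_
  intro w _ hw
  have hbot : ⁅E'.comap σ, E'.comap σ⁆ = ⊥ := by
    rw [Subgroup.commutator_eq_bot_iff_le_centralizer]
    intro a ha
    rw [Subgroup.mem_centralizer_iff]
    intro b hb
    exact CExt.comm_of_sq E' hsq hb ha
  rw [hbot] at hw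
  exact hw

theorem multiplier_J1 : HasCyclicSchurMultiplier JG 1 := by
  apply trivial_multiplier_of_no_prime_stem
  intro p Γ _ _ σ hp hσ hcard
  by_cases h2 : p = 2
  · subst h2
    exact two_false σ hσ hcard
  · refine stem_prime_false_of_sq σ hσ hp hcard ?_
    rw [card_J1]
    intro hd
    have hpd : p ∣ 175560 := (dvd_pow_self p (by norm_num)).trans hd
    have hmem : p = 2 ∨ p = 3 ∨ p = 5 ∨ p = 7 ∨ p = 11 ∨ p = 19 := by
      have e : (175560 : ℕ) = 2 * (2 * (2 * (3 * (5 * (7 * (11 * 19)))))) := by norm_num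
      rw [e] at hpd
      have pe : ∀ q : ℕ, q.Prime → p ∣ q → p = q := fun q hq h =>
        (Nat.prime_dvd_prime_iff_eq hp hq).1 h
      rcases (Nat.Prime.dvd_mul hp).1 hpd with h | h
      · exact Or.inl (pe 2 (by norm_num) h)
      rcases (Nat.Prime.dvd_mul hp).1 h with h | h
      · exact Or.inl (pe 2 (by norm_num) h)
      rcases (Nat.Prime.dvd_mul hp).1 h with h | h
      · exact Or.inl (pe 2 (by norm_num) h)
      rcases (Nat.Prime.dvd_mul hp).1 h with h | h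
      · exact Or.inr (Or.inl (pe 3 (by norm_num) h))
      rcases (Nat.Prime.dvd_mul hp).1 h with h | h
      · exact Or.inr (Or.inr (Or.inl (pe 5 (by norm_num) h)))
      rcases (Nat.Prime.dvd_mul hp).1 h with h | h
      · exact Or.inr (Or.inr (Or.inr (Or.inl (pe 7 (by norm_num) h))))
      rcases (Nat.Prime.dvd_mul hp).1 h with h | h
      · exact Or.inr (Or.inr (Or.inr (Or.inr (Or.inl (pe 11 (by norm_num) h)))))
      · exact Or.inr (Or.inr (Or.inr (Or.inr (Or.inr (pe 19 (by norm_num) h)))))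
    rcases hmem with rfl | rfl | rfl | rfl | rfl | rfl
    · exact h2 rfl
    all_goals norm_num at hd

end Cfsg.Agent.Lib.Helper21.J1
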