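import Mathlib
import Cfsg.Agent.Lib.Helper4.Supersolvable2

set_option autoImplicit false

namespace Cfsg.Agent.Lib.Helper21

universe u v

/-- Two finite groups with the same order type admit an order-preserving bijection. -/
theorem exists_orderOf_equiv {G : Type u} {H : Type v} [Group G] [Finite G] [Group H] [Finite H]
    (hT : ∀ m : ℕ, Nat.card {g : G // orderOf g = m} = Nat.card {h : H // orderOf h = m}) :
    ∃ e : G ≃ H, ∀ g, orderOf (e g) = orderOf g := by
  have h1 : ∀ m : ℕ, Nonempty ({g : G // orderOf g = m} ≃ {h : H // orderOf h = m}) := fun m =>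
    Finite.card_eq.mp (hT m)
  have f : ∀ m : ℕ, ({g : G // orderOf g = m} ≃ {h : H // orderOf h = m}) :=
    fun m => Classical.choice (h1 m)
  refine ⟨((Equiv.sigmaFiberEquiv (orderOf : G → ℕ)).symm.trans
    (Equiv.sigmaCongrRight (fun m => (f m)))).trans (Equiv.sigmaFiberEquiv (orderOf : H → ℕ)), ?_⟩
  intro g
  simp only [Equiv.trans_apply]
  exact ((f (orderOf g)) ⟨g, rfl⟩).2

/-- The preimage of a set under the quotient map. -/
theorem ncard_preimage_mk {X : Type u} [Group X] [Finite X] (N : Subgroup X) [N.Normal]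
    (S : Set (X ⧸ N)) :
    ((QuotientGroup.mk : X → X ⧸ N) ⁻¹' S).ncard = Nat.card N * S.ncard := by
  rw [← Nat.card_coe_set_eq, ← Nat.card_coe_set_eq, mul_comm, ← Nat.card_prod]
  refine Nat.card_congr ?_
  refine (Equiv.subtypeEquiv (p := fun x => x ∈ (QuotientGroup.mk : X → X ⧸ N) ⁻¹' S)
    (q := fun y : (X ⧸ N) × N => y.1 ∈ S)
    (Subgroup.groupEquivQuotientProdSubgroup (s := N)) (fun x => Iff.rfl)).trans ?_
  exact
    { toFun := fun y => (⟨y.1.1, y.2⟩, y.1.2)
      invFun := fun y => ⟨(y.1.1, y.2), y.1.2⟩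
      left_inv := fun y => rfl
      right_inv := fun y => rfl }

/-- Elements all of whose prime divisors of the order are at least `t`. -/
def bigSet (t : ℕ) (X : Type u) [Group X] : Set X :=
  {x | ∀ q : ℕ, q.Prime → q ∣ orderOf x → t ≤ q}

theorem bigSet_eq_preimage {X : Type u} [Group X] [Finite X] (N : Subgroup X) [N.Normal]
    {p : ℕ} (hp : p.Prime) (hN : IsPGroup p N) {t : ℕ} (ht : t ≤ p) :
    bigSet t X = (QuotientGroup.mk : X → X ⧸ N) ⁻¹' (bigSet t (X ⧸ N)) := by
  ext x
  simp only [bigSet, Set.mem_ofPred_eq, Set.mem_preimage]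
  constructor
  · intro h q hq hqd
    exact h q hq (hqd.trans (orderOf_map_dvd (QuotientGroup.mk' N) x))
  · intro h q hq hqd
    -- x ^ m ∈ N
    set m := orderOf (x : X ⧸ N) with hm
    have h1 : x ^ m ∈ N := by
      rw [← QuotientGroup.eq_one_iff, QuotientGroup.mk_pow, hm, pow_orderOf_eq_one]
    obtain ⟨k, hk⟩ := hN ⟨x ^ m, h1⟩
    have h2 : x ^ (m * p ^ k) = 1 := by
      have := congrArg Subtype.val hk
      simpa [pow_mul] using this
    have h3 : q ∣ m * p ^ k := hqd.trans (orderOf_dvd_of_pow_eq_one h2)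
    rcases (Nat.Prime.dvd_mul hq).mp h3 with h4 | h4
    · exact h q hq h4
    · have := (Nat.prime_dvd_prime_iff_eq hq hp).mp (hq.dvd_of_dvd_pow h4)
      omega

theorem ncard_bigSet_quotient {X : Type u} [Group X] [Finite X] (N : Subgroup X) [N.Normal]
    {p : ℕ} (hp : p.Prime) (hN : IsPGroup p N) {t : ℕ} (ht : t ≤ p) :
    (bigSet t X).ncard = Nat.card N * (bigSet t (X ⧸ N)).ncard := by
  rw [bigSet_eq_preimage N hp hN ht, ncard_preimage_mk]

theorem bigSet_eq_one {X : Type u} [Group X] [Finite X] {t : ℕ}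
    (h : ∀ q : ℕ, q.Prime → q ∣ Nat.card X → q < t) : bigSet t X = {1} := by
  ext x
  simp only [bigSet, Set.mem_ofPred_eq, Set.mem_singleton_iff]
  constructor
  · intro hx
    by_contra hne
    have h1 : orderOf x ≠ 1 := fun h => hne (orderOf_eq_one_iff.mp h)
    obtain ⟨q, hq, hqd⟩ := Nat.exists_prime_and_dvd h1
    have := hx q hq hqd
    have := h q hq (hqd.trans (orderOf_dvd_natCard x))
    omega
  · rintro rfl q hq hqd
    rw [orderOf_one] at hqd
    exact absurd (Nat.dvd_one.mp hqd) hq.one_lt.ne'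

/-- The counting property of groups with a Sylow tower of supersolvable type. -/
def Tower (X : Type u) [Group X] : Prop :=
  ∀ t : ℕ, (bigSet t X).ncard ∣ Nat.card X ∧
    (∀ q : ℕ, q.Prime → q ∣ (bigSet t X).ncard → t ≤ q) ∧
    (∀ q : ℕ, q.Prime → q ∣ Nat.card X / (bigSet t X).ncard → q < t)

theorem tower_of_lt {X : Type u} [Group X] [Finite X] {t : ℕ}
    (h : ∀ q : ℕ, q.Prime → q ∣ Nat.card X → q < t) :
    (bigSet t X).ncard ∣ Nat.card X ∧
    (∀ q : ℕ, q.Prime → q ∣ (bigSet t X).ncard → t ≤ q) ∧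
    (∀ q : ℕ, q.Prime → q ∣ Nat.card X / (bigSet t X).ncard → q < t) := by
  rw [bigSet_eq_one h, Set.ncard_singleton]
  refine ⟨one_dvd _, fun q hq hqd => absurd (Nat.dvd_one.mp hqd) hq.one_lt.ne', ?_⟩
  intro q hq hqd
  rw [Nat.div_one] at hqd
  exact h q hq hqd

theorem tower_iff_quotient {X : Type u} [Group X] [Finite X] (N : Subgroup X) [N.Normal]
    {p : ℕ} (hp : p.Prime) (hN : IsPGroup p N)
    (hmax : ∀ q : ℕ, q.Prime → q ∣ Nat.card X → q ≤ p) : Tower X ↔ Tower (X ⧸ N) := by
  have hcard : Nat.card X = Nat.card N * Nat.card (X ⧸ N) := by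
    rw [mul_comm]; exact Subgroup.card_eq_card_quotient_mul_card_subgroup N
  have hNpos : 0 < Nat.card N := Nat.card_pos
  have : Fact p.Prime := ⟨hp⟩
  have hmax' : ∀ q : ℕ, q.Prime → q ∣ Nat.card (X ⧸ N) → q ≤ p := fun q hq hqd =>
    hmax q hq (hqd.trans ⟨Nat.card N, by rw [hcard, mul_comm]⟩)
  constructor
  · intro h t
    by_cases ht : t ≤ p
    · obtain ⟨h1, h2, h3⟩ := h t
      rw [ncard_bigSet_quotient N hp hN ht, hcard] at h1 h3
      rw [ncard_bigSet_quotient N hp hN ht] at h2
      refine ⟨Nat.dvd_of_mul_dvd_mul_left hNpos h1, fun q hq hqd => h2 q hq (hqd.mul_left _), ?_⟩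
      intro q hq hqd
      rw [Nat.mul_div_mul_left _ _ hNpos] at h3
      exact h3 q hq hqd
    · exact tower_of_lt (fun q hq hqd => by have := hmax' q hq hqd; omega)
  · intro h t
    by_cases ht : t ≤ p
    · obtain ⟨h1, h2, h3⟩ := h t
      rw [ncard_bigSet_quotient N hp hN ht, hcard]
      refine ⟨Nat.mul_dvd_mul_left _ h1, ?_, ?_⟩
      · intro q hq hqd
        rcases (Nat.Prime.dvd_mul hq).mp hqd with h4 | h4
        · obtain ⟨k, hk⟩ := IsPGroup.iff_card.mp hN
          rw [hk] at h4
          have := (Nat.prime_dvd_prime_iff_eq hq hp).mp (hq.dvd_of_dvd_pow h4)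
          omega
        · exact h2 q hq h4
      · intro q hq hqd
        rw [Nat.mul_div_mul_left _ _ hNpos] at hqd
        exact h3 q hq hqd
    · exact tower_of_lt (fun q hq hqd => by have := hmax q hq hqd; omega)

theorem tower_of_supersolvable (n : ℕ) : ∀ {G : Type u} [Group G] [Finite G],
    Nat.card G = n → Cfsg.IsSupersolvable G → Tower G := by
  induction n using Nat.strong_induction_on with
  | _ n ih =>
    intro G _ _ hn hG
    by_cases h1 : Nat.card G = 1
    · intro t
      have : ∀ q : ℕ, q.Prime → q ∣ Nat.card G → q < t := by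
        intro q hq hqd
        rw [h1] at hqd
        exact absurd (Nat.dvd_one.mp hqd) hq.one_lt.ne'
      exact tower_of_lt this
    have h2 : 1 < Nat.card G := by have : 0 < Nat.card G := Nat.card_pos; omega
    obtain ⟨p, hp, hpd, hmax⟩ := Cfsg.Agent.Lib.Helper4.exists_max_prime_dvd _ h2
    obtain ⟨N, hN, hNc⟩ := Cfsg.Agent.Lib.Helper4.exists_normal_card_eq_maxPrime _ rfl hG p hp hpd hmax
    have : Fact p.Prime := ⟨hp⟩
    have hNp : IsPGroup p N := IsPGroup.of_card (n := 1) (by rw [hNc, pow_one])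
    rw [tower_iff_quotient N hp hNp hmax]
    refine ih _ ?_ rfl (Cfsg.Agent.Lib.Helper4.supersolvable_quotient N hG)
    rw [← hn]
    exact Cfsg.Agent.Lib.Helper4.card_quotient_lt N (by rw [hNc]; exact hp.one_lt)

theorem bigSet_conj {X : Type u} [Group X] {t : ℕ} {x : X} (hx : x ∈ bigSet t X) (g : X) :
    g * x * g⁻¹ ∈ bigSet t X := by
  intro q hq hqd
  have : orderOf (g * x * g⁻¹) = orderOf x := by
    have := (MulAut.conj g).orderOf_eq x
    simpa using this
  rw [this] at hqd
  exact hx q hq hqd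

/-- If a subgroup contained in a conjugation-invariant set has at least as many elements,
it is normal. -/
theorem normal_of_ncard_le {X : Type u} [Group X] [Finite X] (P : Subgroup X) (S : Set X)
    (hPS : (P : Set X) ⊆ S) (hS : ∀ x ∈ S, ∀ g : X, g * x * g⁻¹ ∈ S)
    (hc : S.ncard ≤ Nat.card P) : P.Normal ∧ (P : Set X) = S := by
  have h1 : (P : Set X) = S := by
    apply Set.eq_of_subset_of_ncard_le hPS _ (Set.toFinite _)
    rwa [← Nat.card_coe_set_eq (P : Set X)]
  refine ⟨⟨fun x hx g => ?_⟩, h1⟩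
  have : g * x * g⁻¹ ∈ S := hS x (hPS hx) g
  rw [← h1] at this
  exact this

theorem solvable_of_tower (n : ℕ) : ∀ {H : Type u} [Group H] [Finite H],
    Nat.card H = n → Tower H → Group.IsSolvable H := by
  induction n using Nat.strong_induction_on with
  | _ n ih =>
    intro H _ _ hn hH
    by_cases h1 : Nat.card H = 1
    · have : Subsingleton H := (Nat.card_eq_one_iff_unique.mp h1).1
      infer_instance
    have h2 : 1 < Nat.card H := by have : 0 < Nat.card H := Nat.card_pos; omega
    obtain ⟨p, hp, hpd, hmax⟩ := Cfsg.Agent.Lib.Helper4.exists_max_prime_dvd _ h2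
    have : Fact p.Prime := ⟨hp⟩
    obtain ⟨P⟩ : Nonempty (Sylow p H) := inferInstance
    obtain ⟨hc1, hc2, -⟩ := hH p
    have hc0 : (bigSet p H).ncard ≠ 0 := by
      intro h0
      rw [h0] at hc1
      have := Nat.eq_zero_of_zero_dvd hc1
      omega
    have hcp : (bigSet p H).ncard = p ^ ((bigSet p H).ncard).primeFactorsList.length := by
      apply Nat.eq_prime_pow_of_unique_prime_dvd hc0
      intro d hd hdd
      exact le_antisymm (hmax d hd (hdd.trans hc1)) (hc2 d hd hdd)
    have hle : (bigSet p H).ncard ≤ Nat.card (P : Subgroup H) := by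
      rw [P.card_eq_multiplicity]
      apply Nat.le_of_dvd (pow_pos hp.pos _)
      rw [hcp]
      apply pow_dvd_pow
      rw [← hp.pow_dvd_iff_le_factorization (by omega), ← hcp]
      exact hc1
    have hPS : ((P : Subgroup H) : Set H) ⊆ bigSet p H := by
      intro x hx q hq hqd
      obtain ⟨k, hk⟩ := (IsPGroup.iff_orderOf.mp P.2) ⟨x, hx⟩
      rw [Subgroup.orderOf_mk] at hk
      rw [hk] at hqd
      exact ((Nat.prime_dvd_prime_iff_eq hq hp).mp (hq.dvd_of_dvd_pow hqd)).ge
    obtain ⟨hPn, -⟩ := normal_of_ncard_le (P : Subgroup H) _ hPS (fun x hx g => bigSet_conj hx g) hle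
    have hT := (tower_iff_quotient (P : Subgroup H) hp P.2 hmax).mp hH
    have hP1 : 1 < Nat.card (P : Subgroup H) := by
      rw [P.card_eq_multiplicity]
      apply Nat.one_lt_pow _ hp.one_lt
      have := (hp.dvd_iff_one_le_factorization (by omega)).mp hpd
      omega
    have hsq : Group.IsSolvable (H ⧸ (P : Subgroup H)) :=
      ih _ (hn ▸ Cfsg.Agent.Lib.Helper4.card_quotient_lt _ hP1) rfl hT
    have hsp : Group.IsSolvable (P : Subgroup H) := by
      have := P.2.isNilpotent
      infer_instance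
    exact (Group.isSolvable_iff_subgroup_quotient (P : Subgroup H)).mpr ⟨hsp, hsq⟩

theorem tower_of_equiv {G : Type u} {H : Type v} [Group G] [Finite G] [Group H] [Finite H]
    (e : G ≃ H) (he : ∀ g, orderOf (e g) = orderOf g) (hG : Tower G) : Tower H := by
  have h1 : Nat.card H = Nat.card G := (Nat.card_congr e).symm
  have h2 : ∀ t, (bigSet t H).ncard = (bigSet t G).ncard := by
    intro t
    have : bigSet t H = e '' (bigSet t G) := by
      ext y
      simp only [bigSet, Set.mem_ofPred_eq, Set.mem_image]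
      constructor
      · intro hy
        refine ⟨e.symm y, ?_, by simp⟩
        rw [← he, Equiv.apply_symm_apply]
        exact hy
      · rintro ⟨x, hx, rfl⟩
        rw [he]
        exact hx
    rw [this, Set.ncard_image_of_injective _ e.injective]
  intro t
  rw [h1, h2]
  exact hG t

end Cfsg.Agent.Lib.Helper21
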