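import Mathlib

set_option autoImplicit false
open scoped TensorProduct

namespace Cfsg.Agent.Lib.Helper21

section tensor
variable {U V W : Type*} [CommGroup U] [CommGroup V] [CommGroup W]

/-- The multiplicative version of the tensor product of two commutative groups. -/
abbrev MTensor (U V : Type*) [CommGroup U] [CommGroup V] : Type _ :=
  Multiplicative (TensorProduct ℤ (Additive U) (Additive V))

/-- The canonical bimultiplicative map `U × V → U ⊗ V`. -/
def mkTensor (U V : Type*) [CommGroup U] [CommGroup V] : U →* V →* MTensor U V where
  toFun u :=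
    { toFun := fun v => Multiplicative.ofAdd (Additive.ofMul u ⊗ₜ[ℤ] Additive.ofMul v)
      map_one' := by simp
      map_mul' := by intro a b; simp [TensorProduct.tmul_add] }
  map_one' := by ext v; simp
  map_mul' := by intro a b; ext v; simp [TensorProduct.add_tmul]

@[simp] theorem mkTensor_apply (u : U) (v : V) :
    mkTensor U V u v = Multiplicative.ofAdd (Additive.ofMul u ⊗ₜ[ℤ] Additive.ofMul v) := rfl

/-- Universal property. -/
theorem exists_tensor_hom (c : U →* V →* W) :
    ∃ τ : MTensor U V →* W, ∀ u v, τ (mkTensor U V u v) = c u v := by
  let f : Additive U →+ Additive V →+ Additive W :=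
    { toFun := fun u => MonoidHom.toAdditive (c (Additive.toMul u))
      map_zero' := by ext v; simp
      map_add' := by intro a b; ext v; simp }
  have hf : ∀ (r : ℤ) (m : Additive U) (n : Additive V), f (r • m) n = f m (r • n) := by
    intro r m n
    rw [map_zsmul, map_zsmul, AddMonoidHom.smul_apply]
  refine ⟨AddMonoidHom.toMultiplicativeLeft (TensorProduct.liftAddHom f hf), ?_⟩
  intro u v
  rfl

/-- Induction principle: a subgroup containing all pure tensors is everything. -/
theorem mtensor_induction (H : Subgroup (MTensor U V)) (h : ∀ u v, mkTensor U V u v ∈ H) (t : MTensor U V) :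
    t ∈ H := by
  have : ∀ s : TensorProduct ℤ (Additive U) (Additive V), Multiplicative.ofAdd s ∈ H := by
    intro s
    induction s using TensorProduct.induction_on with
    | zero => exact H.one_mem
    | tmul x y => exact h (Additive.toMul x) (Additive.toMul y)
    | add x y hx hy => exact H.mul_mem hx hy
  exact this (Multiplicative.toAdd t)

theorem mtensor_pow_card_left [Finite U] (t : MTensor U V) : t ^ Nat.card U = 1 := by
  let H : Subgroup (MTensor U V) := (powMonoidHom (Nat.card U) : MTensor U V →* MTensor U V).ker
  have : t ∈ H := by
    apply mtensor_induction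
    intro u v
    show (mkTensor U V u v) ^ Nat.card U = 1
    rw [← MonoidHom.pow_apply, ← map_pow, pow_card_eq_one', map_one, MonoidHom.one_apply]
  exact this

theorem mtensor_pow_card_right [Finite V] (t : MTensor U V) : t ^ Nat.card V = 1 := by
  let H : Subgroup (MTensor U V) := (powMonoidHom (Nat.card V) : MTensor U V →* MTensor U V).ker
  have : t ∈ H := by
    apply mtensor_induction
    intro u v
    show (mkTensor U V u v) ^ Nat.card V = 1
    rw [← map_pow, pow_card_eq_one', map_one]
  exact this

instance mtensor_finite [Finite U] [Finite V] : Finite (MTensor U V) := by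
  have hU : Finite (Additive U) := Finite.of_equiv U Additive.ofMul
  have hV : Finite (Additive V) := Finite.of_equiv V Additive.ofMul
  have hU' : Module.Finite ℤ (Additive U) := Module.Finite.of_finite
  have hV' : Module.Finite ℤ (Additive V) := Module.Finite.of_finite
  have h1 : Module.Finite ℤ (TensorProduct ℤ (Additive U) (Additive V)) := Module.Finite.tensorProduct ℤ _ _
  have h2 : AddGroup.FG (TensorProduct ℤ (Additive U) (Additive V)) := Module.Finite.iff_addGroup_fg.mp h1
  have h3 : Finite (TensorProduct ℤ (Additive U) (Additive V)) := by
    apply AddCommGroup.finite_of_fg_isAddTorsion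
    intro s
    rw [isOfFinAddOrder_iff_nsmul_eq_zero]
    refine ⟨Nat.card U, Nat.card_pos, ?_⟩
    exact mtensor_pow_card_left (Multiplicative.ofAdd s)
  exact Finite.of_equiv _ Multiplicative.ofAdd

theorem mtensor_subsingleton_of_coprime [Finite U] [Finite V] (h : (Nat.card U).Coprime (Nat.card V)) :
    Subsingleton (MTensor U V) := by
  refine ⟨fun a b => ?_⟩
  have key : ∀ t : MTensor U V, t = 1 := by
    intro t
    have h1 := orderOf_dvd_of_pow_eq_one (mtensor_pow_card_left t)
    have h2 := orderOf_dvd_of_pow_eq_one (mtensor_pow_card_right t)
    have := Nat.dvd_gcd h1 h2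
    rw [h.gcd_eq_one, Nat.dvd_one, orderOf_eq_one_iff] at this
    exact this
  rw [key a, key b]

end tensor

end Cfsg.Agent.Lib.Helper21
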