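import Mathlib
import Cfsg.Prelude.Def_KGroupFacts
import Cfsg.Agent.Lib.Helper21.BilinExt
import Cfsg.Agent.Lib.Helper21.Tensor

set_option autoImplicit false
open scoped commutatorElement

namespace Cfsg.Agent.Lib.Helper21

universe u v w

section
variable {Q₁ : Type u} {Q₂ : Type v} [Group Q₁] [Group Q₂] {Γ₁ : Type u} {Γ₂ : Type v} [Group Γ₁] [Group Γ₂]
  (σ₁ : Γ₁ →* Q₁) (σ₂ : Γ₂ →* Q₂)

/-- the cocycle on `Γ₁ × Γ₂` -/
def prodCocycle : (Γ₁ × Γ₂) →* (Γ₁ × Γ₂) →* MTensor (Abelianization Q₁) (Abelianization Q₂) :=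
  ((mkTensor (Abelianization Q₁) (Abelianization Q₂)).comp
    (Abelianization.of.comp (σ₁.comp (MonoidHom.fst Γ₁ Γ₂)))).compl₂
    (Abelianization.of.comp (σ₂.comp (MonoidHom.snd Γ₁ Γ₂)))

theorem prodCocycle_apply (x y : Γ₁ × Γ₂) :
    prodCocycle σ₁ σ₂ x y = mkTensor _ _ (Abelianization.of (σ₁ x.1)) (Abelianization.of (σ₂ y.2)) := rfl

theorem prodCocycle_eq_one_left (x y : Γ₁ × Γ₂) (h : σ₁ x.1 = 1) : prodCocycle σ₁ σ₂ x y = 1 := by
  rw [prodCocycle_apply, h, map_one, map_one, MonoidHom.one_apply]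

theorem prodCocycle_eq_one_right (x y : Γ₁ × Γ₂) (h : σ₂ y.2 = 1) : prodCocycle σ₁ σ₂ x y = 1 := by
  rw [prodCocycle_apply, h, map_one, map_one]

theorem prod_exists [Finite Q₁] [Finite Q₂] [Finite Γ₁] [Finite Γ₂]
    (h₁ : Cfsg.IsStemExtension σ₁) (h₂ : Cfsg.IsStemExtension σ₂) :
    ∃ (Γ : Type (max u v)) (_ : Group Γ) (_ : Finite Γ) (σ : Γ →* Q₁ × Q₂), Cfsg.IsStemExtension σ ∧
      Nonempty (σ.ker ≃* σ₁.ker × σ₂.ker × MTensor (Abelianization Q₁) (Abelianization Q₂)) := by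
  set β := prodCocycle σ₁ σ₂ with hβ
  let σ : BilinExt β →* Q₁ × Q₂ := (σ₁.prodMap σ₂).comp (BilinExt.proj β)
  have hσ : ∀ x : BilinExt β, σ x = (σ₁ x.fst.1, σ₂ x.fst.2) := fun x => rfl
  have hker : ∀ x : BilinExt β, x ∈ σ.ker ↔ σ₁ x.fst.1 = 1 ∧ σ₂ x.fst.2 = 1 := by
    intro x
    rw [MonoidHom.mem_ker, hσ]
    exact Prod.ext_iff
  -- embeddings
  let j₁ : Γ₁ →* BilinExt β :=
    { toFun := fun g => ⟨(g, 1), 1⟩
      map_one' := rfl
      map_mul' := by
        intro a b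
        ext
        · simp
        · simp
        · simp only [BilinExt.mul_snd, one_mul]
          exact (prodCocycle_eq_one_right σ₁ σ₂ _ _ (map_one σ₂)).symm }
  let j₂ : Γ₂ →* BilinExt β :=
    { toFun := fun g => ⟨(1, g), 1⟩
      map_one' := rfl
      map_mul' := by
        intro a b
        ext
        · simp
        · simp
        · simp only [BilinExt.mul_snd, one_mul]
          exact (prodCocycle_eq_one_left σ₁ σ₂ _ _ (map_one σ₁)).symm }
  have hj₁ : ∀ g ∈ commutator Γ₁, j₁ g ∈ commutator (BilinExt β) := by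
    intro g hg
    have : (commutator Γ₁).map j₁ ≤ commutator (BilinExt β) := by
      rw [commutator_def, Subgroup.map_commutator, commutator_def]
      exact Subgroup.commutator_mono le_top le_top
    exact this (Subgroup.mem_map_of_mem _ hg)
  have hj₂ : ∀ g ∈ commutator Γ₂, j₂ g ∈ commutator (BilinExt β) := by
    intro g hg
    have : (commutator Γ₂).map j₂ ≤ commutator (BilinExt β) := by
      rw [commutator_def, Subgroup.map_commutator, commutator_def]
      exact Subgroup.commutator_mono le_top le_top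
    exact this (Subgroup.mem_map_of_mem _ hg)
  have hincl : ∀ t, BilinExt.incl β t ∈ commutator (BilinExt β) := by
    intro t
    have : t ∈ (commutator (BilinExt β)).comap (BilinExt.incl β) := by
      apply mtensor_induction
      intro u v
      obtain ⟨q₁, rfl⟩ := QuotientGroup.mk'_surjective _ u
      obtain ⟨q₂, rfl⟩ := QuotientGroup.mk'_surjective _ v
      obtain ⟨g₁, rfl⟩ := h₁.1 q₁
      obtain ⟨g₂, rfl⟩ := h₂.1 q₂
      rw [Subgroup.mem_comap]
      have hc := BilinExt.commutator_of_commute β (j₁ g₁) (j₂ g₂) (by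
        show ((g₁, 1) : Γ₁ × Γ₂) * (1, g₂) = (1, g₂) * (g₁, 1)
        simp)
      have e1 : β (j₁ g₁).fst (j₂ g₂).fst =
          mkTensor _ _ (Abelianization.of (σ₁ g₁)) (Abelianization.of (σ₂ g₂)) := rfl
      have e2 : β (j₂ g₂).fst (j₁ g₁).fst = 1 := prodCocycle_eq_one_left σ₁ σ₂ _ _ (map_one σ₁)
      rw [e1, e2, inv_one, mul_one] at hc
      have e3 : mkTensor (Abelianization Q₁) (Abelianization Q₂) ((QuotientGroup.mk' (commutator Q₁)) (σ₁ g₁))
          ((QuotientGroup.mk' (commutator Q₂)) (σ₂ g₂)) =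
          mkTensor _ _ (Abelianization.of (σ₁ g₁)) (Abelianization.of (σ₂ g₂)) := rfl
      rw [e3, ← hc]
      exact Subgroup.commutator_mem_commutator (Subgroup.mem_top _) (Subgroup.mem_top _)
    exact this
  refine ⟨BilinExt β, inferInstance, inferInstance, σ, ⟨?_, ?_, ?_⟩, ⟨?_⟩⟩
  · rintro ⟨q₁, q₂⟩
    obtain ⟨g₁, rfl⟩ := h₁.1 q₁
    obtain ⟨g₂, rfl⟩ := h₂.1 q₂
    exact ⟨⟨(g₁, g₂), 1⟩, rfl⟩
  · intro x hx
    obtain ⟨hx1, hx2⟩ := (hker x).mp hx
    have c1 := Subgroup.mem_center_iff.mp (h₁.2.1 hx1)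
    have c2 := Subgroup.mem_center_iff.mp (h₂.2.1 hx2)
    rw [Subgroup.mem_center_iff]
    intro y
    ext
    · exact c1 y.fst.1
    · exact c2 y.fst.2
    · simp only [BilinExt.mul_snd]
      rw [prodCocycle_eq_one_left σ₁ σ₂ x.fst y.fst hx1, prodCocycle_eq_one_right σ₁ σ₂ y.fst x.fst hx2,
        mul_comm y.snd]
  · intro x hx
    obtain ⟨hx1, hx2⟩ := (hker x).mp hx
    have hx' : x = j₁ x.fst.1 * j₂ x.fst.2 * BilinExt.incl β x.snd := by
      ext
      · simp [j₁, j₂]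
      · simp [j₁, j₂]
      · simp only [BilinExt.mul_snd, BilinExt.incl_snd, BilinExt.mul_fst, BilinExt.incl_fst, map_one, mul_one]
        have e1 : β (j₁ x.fst.1).fst (j₂ x.fst.2).fst = 1 := prodCocycle_eq_one_left σ₁ σ₂ _ _ hx1
        rw [e1]
        simp [j₁, j₂]
    rw [hx']
    exact Subgroup.mul_mem _ (Subgroup.mul_mem _ (hj₁ _ (h₁.2.2 hx1)) (hj₂ _ (h₂.2.2 hx2))) (hincl _)
  · exact
      { toFun := fun x => (⟨x.1.fst.1, ((hker x.1).mp x.2).1⟩, ⟨x.1.fst.2, ((hker x.1).mp x.2).2⟩, x.1.snd)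
        invFun := fun y => ⟨⟨(y.1.1, y.2.1.1), y.2.2⟩, (hker _).mpr ⟨y.1.2, y.2.1.2⟩⟩
        left_inv := by intro x; rfl
        right_inv := by intro y; rfl
        map_mul' := by
          intro x y
          refine Prod.ext rfl (Prod.ext rfl ?_)
          show x.1.snd * y.1.snd * β x.1.fst y.1.fst = x.1.snd * y.1.snd
          rw [prodCocycle_eq_one_left σ₁ σ₂ _ _ ((hker x.1).mp x.2).1, mul_one] }

end

end Cfsg.Agent.Lib.Helper21
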