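import Mathlib
import Cfsg.Prelude.Def_KGroupFacts
import Cfsg.Agent.Lib.Helper21.Multiplier
import Cfsg.Agent.Lib.Helper21.Tensor
import Cfsg.Agent.Lib.Helper21.Gens

set_option autoImplicit false
open scoped commutatorElement

namespace Cfsg.Agent.Lib.Helper21

universe u v w

theorem sub_lemma {Γ : Type*} {Q₁ : Type u} {A : Type w} [Group Γ] [Group Q₁] [Finite Q₁] [CommGroup A]
    (hA : Cfsg.HasSchurMultiplier Q₁ A) (K Γ₁ : Subgroup Γ) (hK : K ≤ Subgroup.center Γ)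
    (ρ : Γ₁ →* Q₁) (hρ : Function.Surjective ρ) (hker : ∀ x : Γ₁, ρ x = 1 ↔ (x : Γ) ∈ K) :
    ∃ α : A →* K, ∀ d ∈ ⁅Γ₁, Γ₁⁆, d ∈ K → ∃ a, ((α a : K) : Γ) = d := by
  have hc : ρ.ker ≤ Subgroup.center Γ₁ := by
    intro x hx
    have hx' : (x : Γ) ∈ Subgroup.center Γ := hK ((hker x).mp hx)
    rw [Subgroup.mem_center_iff] at hx' ⊢
    intro y
    ext
    exact hx' y
  obtain ⟨α₀, hα₀⟩ := surj_of_central hA ρ hρ hc
  let ι : ↥(ρ.ker ⊓ commutator Γ₁) →* K :=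
    (Γ₁.subtype.comp (Subgroup.subtype _)).codRestrict K (fun x => (hker x.1).mp x.2.1)
  refine ⟨ι.comp α₀, ?_⟩
  intro d hd hdK
  rw [← Subgroup.map_subtype_commutator] at hd
  obtain ⟨d', hd', rfl⟩ := hd
  obtain ⟨a, ha⟩ := hα₀ ⟨d', (hker d').mpr hdK, hd'⟩
  refine ⟨a, ?_⟩
  show ((ι (α₀ a) : K) : Γ) = _
  rw [ha]
  rfl

theorem tensor_lemma {Γ : Type*} {Q₁ : Type u} {Q₂ : Type v} [Group Γ] [Group Q₁] [Group Q₂]
    (σ : Γ →* Q₁ × Q₂) (hs : Function.Surjective σ) (hc : σ.ker ≤ Subgroup.center Γ) :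
    ∃ τ : MTensor (Abelianization Q₁) (Abelianization Q₂) →* σ.ker,
      ∀ x y : Γ, (σ x).2 = 1 → (σ y).1 = 1 → ∃ t, ((τ t : σ.ker) : Γ) = ⁅x, y⁆ := by
  letI : CommGroup σ.ker :=
    { σ.ker.toGroup with
      mul_comm := by
        intro x y
        ext
        exact (Subgroup.mem_center_iff.mp (hc y.2) x.1) }
  let s₁ : Q₁ → Γ := fun q => (hs (q, 1)).choose
  let s₂ : Q₂ → Γ := fun q => (hs (1, q)).choose
  have hs₁ : ∀ q, σ (s₁ q) = (q, 1) := fun q => (hs (q, 1)).choose_spec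
  have hs₂ : ∀ q, σ (s₂ q) = (1, q) := fun q => (hs (1, q)).choose_spec
  have hP : ∀ (q₁ : Q₁) (q₂ : Q₂) (x y : Γ), σ x = (q₁, 1) → σ y = (1, q₂) → ⁅x, y⁆ = ⁅s₁ q₁, s₂ q₂⁆ := by
    intro q₁ q₂ x y hx hy
    exact commutatorElement_eq_of_central σ hc (hx.trans (hs₁ q₁).symm) (hy.trans (hs₂ q₂).symm)
  have hmem : ∀ (q₁ : Q₁) (q₂ : Q₂), ⁅s₁ q₁, s₂ q₂⁆ ∈ σ.ker := by
    intro q₁ q₂
    rw [MonoidHom.mem_ker, map_commutatorElement, hs₁, hs₂, commutatorElement_eq_one_iff_mul_comm]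
    simp
  let c₁ : Q₁ →* (Q₂ →* σ.ker) :=
    MonoidHom.mk' (fun q₁ => MonoidHom.mk' (fun q₂ => ⟨⁅s₁ q₁, s₂ q₂⁆, hmem q₁ q₂⟩) (by
      intro a b
      ext
      show ⁅s₁ q₁, s₂ (a * b)⁆ = ⁅s₁ q₁, s₂ a⁆ * ⁅s₁ q₁, s₂ b⁆
      rw [← comm_mul_right_of_central (hc (hmem q₁ b))]
      exact (hP q₁ (a * b) _ _ (hs₁ q₁) (by rw [map_mul, hs₂, hs₂]; simp)).symm)) (by
      intro a b
      ext q₂
      show ⁅s₁ (a * b), s₂ q₂⁆ = ⁅s₁ a, s₂ q₂⁆ * ⁅s₁ b, s₂ q₂⁆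
      rw [← comm_mul_left_of_central (hc (hmem b q₂))]
      exact (hP (a * b) q₂ _ _ (by rw [map_mul, hs₁, hs₁]; simp) (hs₂ q₂)).symm)
  let c₃ : Abelianization Q₁ →* Abelianization Q₂ →* σ.ker :=
    (Abelianization.lift ((Abelianization.lift c₁).flip)).flip
  have hc₃ : ∀ q₁ q₂, c₃ (Abelianization.of q₁) (Abelianization.of q₂) = c₁ q₁ q₂ := by
    intro q₁ q₂
    simp [c₃, MonoidHom.flip_apply, Abelianization.lift_apply_of]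
  obtain ⟨τ, hτ⟩ := exists_tensor_hom c₃
  refine ⟨τ, ?_⟩
  intro x y hx hy
  refine ⟨mkTensor _ _ (Abelianization.of (σ x).1) (Abelianization.of (σ y).2), ?_⟩
  rw [hτ, hc₃]
  show ⁅s₁ (σ x).1, s₂ (σ y).2⁆ = ⁅x, y⁆
  exact (hP _ _ x y (Prod.ext rfl hx) (Prod.ext hy rfl)).symm

theorem prod_upper {Q₁ : Type u} {Q₂ : Type v} [Group Q₁] [Group Q₂] [Finite Q₁] [Finite Q₂]
    {A B : Type w} [CommGroup A] [CommGroup B] (hA : Cfsg.HasSchurMultiplier Q₁ A)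
    (hB : Cfsg.HasSchurMultiplier Q₂ B) {Γ : Type*} [Group Γ] (σ : Γ →* Q₁ × Q₂)
    (hσ : Cfsg.IsStemExtension σ) :
    ∃ π : A × B × MTensor (Abelianization Q₁) (Abelianization Q₂) →* σ.ker, Function.Surjective π := by
  obtain ⟨hs, hc, hd⟩ := hσ
  letI : CommGroup σ.ker :=
    { σ.ker.toGroup with
      mul_comm := by
        intro x y
        ext
        exact (Subgroup.mem_center_iff.mp (hc y.2) x.1) }
  let Γ₁ : Subgroup Γ := ((MonoidHom.snd Q₁ Q₂).comp σ).ker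
  let Γ₂ : Subgroup Γ := ((MonoidHom.fst Q₁ Q₂).comp σ).ker
  have hΓ₁ : ∀ x, x ∈ Γ₁ ↔ (σ x).2 = 1 := fun x => Iff.rfl
  have hΓ₂ : ∀ x, x ∈ Γ₂ ↔ (σ x).1 = 1 := fun x => Iff.rfl
  obtain ⟨α, hα⟩ := sub_lemma hA σ.ker Γ₁ hc (((MonoidHom.fst Q₁ Q₂).comp σ).comp Γ₁.subtype)
    (by
      intro q
      obtain ⟨g, hg⟩ := hs (q, 1)
      exact ⟨⟨g, by rw [hΓ₁, hg]⟩, by simp [hg]⟩)
    (by
      intro x
      constructor
      · intro h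
        exact Prod.ext h x.2
      · intro h
        have : σ x.1 = 1 := h
        simp [this])
  obtain ⟨β, hβ⟩ := sub_lemma hB σ.ker Γ₂ hc (((MonoidHom.snd Q₁ Q₂).comp σ).comp Γ₂.subtype)
    (by
      intro q
      obtain ⟨g, hg⟩ := hs (1, q)
      exact ⟨⟨g, by rw [hΓ₂, hg]⟩, by simp [hg]⟩)
    (by
      intro x
      constructor
      · intro h
        exact Prod.ext x.2 h
      · intro h
        have : σ x.1 = 1 := h
        simp [this])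
  obtain ⟨τ, hτ⟩ := tensor_lemma σ hs hc
  refine ⟨α.coprod (β.coprod τ), ?_⟩
  have hgen : Subgroup.closure ((Γ₁ : Set Γ) ∪ (Γ₂ : Set Γ)) = ⊤ := by
    rw [eq_top_iff]
    intro g _
    obtain ⟨x, hx⟩ := hs ((σ g).1, 1)
    have h1 : x ∈ Γ₁ := by rw [hΓ₁, hx]
    have h2 : x⁻¹ * g ∈ Γ₂ := by rw [hΓ₂, map_mul, map_inv, hx]; simp
    have : g = x * (x⁻¹ * g) := by group
    rw [this]
    exact Subgroup.mul_mem _ (Subgroup.subset_closure (Or.inl h1)) (Subgroup.subset_closure (Or.inr h2))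
  have hle : commutator Γ ≤ (⁅Γ₁, Γ₁⁆ ⊔ ⁅Γ₂, Γ₂⁆) ⊔ ⁅Γ₁, Γ₂⁆ := by
    apply commutator_le_of_generators _ hgen
    rintro x (hx | hx) y (hy | hy)
    · exact Subgroup.mem_sup_left (Subgroup.mem_sup_left (Subgroup.commutator_mem_commutator hx hy))
    · exact Subgroup.mem_sup_right (Subgroup.commutator_mem_commutator hx hy)
    · apply Subgroup.mem_sup_right
      rw [Subgroup.commutator_comm]
      exact Subgroup.commutator_mem_commutator hx hy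
    · exact Subgroup.mem_sup_left (Subgroup.mem_sup_right (Subgroup.commutator_mem_commutator hx hy))
  have hD12 : ∀ t ∈ ⁅Γ₁, Γ₂⁆, ∃ t', ((τ t' : σ.ker) : Γ) = t := by
    have : ⁅Γ₁, Γ₂⁆ ≤ τ.range.map σ.ker.subtype := by
      rw [Subgroup.commutator_le]
      intro x hx y hy
      obtain ⟨t, ht⟩ := hτ x y hx hy
      exact ⟨τ t, ⟨t, rfl⟩, ht⟩
    intro t ht
    obtain ⟨_, ⟨t', rfl⟩, h⟩ := this ht
    exact ⟨t', h⟩
  intro k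
  have hk : (k : Γ) ∈ (⁅Γ₁, Γ₁⁆ ⊔ ⁅Γ₂, Γ₂⁆) ⊔ ⁅Γ₁, Γ₂⁆ := hle (hd k.2)
  rw [← SetLike.mem_coe, Subgroup.mul_normal] at hk
  obtain ⟨e, he, t, ht, hk⟩ := hk
  rw [SetLike.mem_coe, ← SetLike.mem_coe, Subgroup.mul_normal] at he
  obtain ⟨d₁, hd₁, d₂, hd₂, rfl⟩ := he
  have hd₁' : d₁ ∈ Γ₁ := Subgroup.commutator_le_left Γ₁ Γ₁ hd₁
  have hd₂' : d₂ ∈ Γ₂ := Subgroup.commutator_le_left Γ₂ Γ₂ hd₂
  have ht' : σ t = 1 := by
    have h1 := Subgroup.commutator_le_left Γ₁ Γ₂ ht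
    have h2 := Subgroup.commutator_le_right Γ₁ Γ₂ ht
    exact Prod.ext h2 h1
  have hσk : σ d₁ * σ d₂ = 1 := by
    have : σ (k : Γ) = 1 := k.2
    rw [← hk] at this
    simpa [ht'] using this
  have h1 : d₁ ∈ σ.ker := by
    refine Prod.ext ?_ hd₁'
    have := congrArg Prod.fst hσk
    simpa [(hΓ₂ d₂).mp hd₂'] using this
  have h2 : d₂ ∈ σ.ker := by
    refine Prod.ext hd₂' ?_
    have := congrArg Prod.snd hσk
    simpa [(hΓ₁ d₁).mp hd₁'] using this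
  obtain ⟨a, ha⟩ := hα d₁ hd₁ h1
  obtain ⟨b, hb⟩ := hβ d₂ hd₂ h2
  obtain ⟨t', ht''⟩ := hD12 t ht
  refine ⟨(a, b, t'), ?_⟩
  ext
  simp only [MonoidHom.coprod_apply, Subgroup.coe_mul, ha, hb, ht'']
  rw [← hk]
  simp [mul_assoc]

end Cfsg.Agent.Lib.Helper21
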