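import Mathlib
import Cfsg.Prelude.Def_KGroupFacts
import Cfsg.Agent.Lib.Helper21.Multiplier

/-!
A Schur cover maps to every central extension with divisible kernel.
-/

set_option autoImplicit false
open scoped commutatorElement

namespace Cfsg.Agent.Lib.Helper21

universe u v w

theorem exists_extension_div {M N D : Type*} [CommGroup M] [CommGroup N] [CommGroup D]
    (hD : ∀ n : ℕ, n ≠ 0 → ∀ d : D, ∃ e : D, e ^ n = d) (f : M →* N) (hf : Function.Injective f)
    (g : M →* D) : ∃ h : N →* D, h.comp f = g := by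
  letI : DivisibleBy (Additive D) ℕ := divisibleByOfSMulRightSurj (Additive D) ℕ (by
    intro n hn d
    obtain ⟨e, he⟩ := hD n hn d.toMul
    exact ⟨Additive.ofMul e, he⟩)
  letI : DivisibleBy (Additive D) ℤ := AddGroup.divisibleByIntOfDivisibleByNat (Additive D)
  obtain ⟨h, hh⟩ := (Module.Baer.of_divisible (Additive D)).extension_property_addMonoidHom
    (MonoidHom.toAdditive f) hf (MonoidHom.toAdditive g)
  refine ⟨MonoidHom.toAdditive.symm h, ?_⟩
  ext m
  exact DFunLike.congr_fun hh (Additive.ofMul m)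

theorem lift_cover {Q : Type u} [Group Q] [Finite Q] {A : Type v} [CommGroup A]
    (hA : Cfsg.HasSchurMultiplier Q A) {Γ : Type*} [Group Γ] [Finite Γ] (σ : Γ →* Q)
    (hσ : Cfsg.IsStemExtension σ) (hk : Nonempty (σ.ker ≃* A)) {X : Type*} [Group X] (ξ : X →* Q)
    (hξ : Function.Surjective ξ) (hc : ξ.ker ≤ Subgroup.center X)
    (hdiv : ∀ n : ℕ, n ≠ 0 → ∀ z ∈ ξ.ker, ∃ w ∈ ξ.ker, w ^ n = z) :
    ∃ ρ : Γ →* X, ξ.comp ρ = σ := by
  obtain ⟨ek⟩ := hk
  set p := CEproj (FreeGroup.lift (id : Q → Q)) with hp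
  have hps : Function.Surjective p := CEproj_surjective _ lift_id_surjective
  have hpc : p.ker ≤ Subgroup.center _ := CEproj_ker_le_center _
  obtain ⟨θ, hθ⟩ := CE_free_exists_lift (id : Q → Q) σ hσ.1 hσ.2.1
  obtain ⟨ψ, hψ⟩ := CE_free_exists_lift (id : Q → Q) ξ hξ hc
  have hθ' : ∀ e, σ (θ e) = p e := fun e => DFunLike.congr_fun hθ e
  have hψ' : ∀ e, ξ (ψ e) = p e := fun e => DFunLike.congr_fun hψ e
  have hmap := map_ker_inf_commutator p hps σ hσ.2.1 θ hθ
  rw [stem_ker_inf σ hσ] at hmap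
  -- θ is surjective
  have hθs : Function.Surjective θ := by
    intro x
    obtain ⟨e, he⟩ := hps (σ x)
    have h1 : σ (θ e) = σ x := by
      rw [← he, hθ']
    have h2 : (θ e)⁻¹ * x ∈ σ.ker := by
      rw [MonoidHom.mem_ker, map_mul, map_inv, h1, inv_mul_cancel]
    rw [← hmap] at h2
    obtain ⟨m, -, hm⟩ := h2
    exact ⟨e * m, by rw [map_mul, hm]; group⟩
  -- the kernel of θ meets the commutator subgroup trivially
  obtain ⟨eM⟩ := equiv_presM (id : Q → Q) lift_id_surjective hA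
  have hfinM := presM_finite (id : Q → Q)
  have hK : θ.ker ⊓ commutator _ = ⊥ := by
    let r : presM (id : Q → Q) →* σ.ker :=
      (θ.comp (presM (id : Q → Q)).subtype).codRestrict σ.ker (by
        intro m
        rw [← hmap]
        exact Subgroup.mem_map_of_mem _ m.2)
    have hr : Function.Surjective r := by
      rintro ⟨y, hy⟩
      rw [← hmap] at hy
      obtain ⟨m, hm, rfl⟩ := hy
      exact ⟨⟨m, hm⟩, rfl⟩
    have hcard : Nat.card (presM (id : Q → Q)) = Nat.card σ.ker :=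
      Nat.card_congr (eM.symm.trans ek.symm).toEquiv
    have hbij : Function.Bijective r :=
      (Nat.bijective_iff_surjective_and_card r).mpr ⟨hr, hcard⟩
    rw [eq_bot_iff]
    rintro x ⟨hx1, hx2⟩
    have hx3 : x ∈ p.ker := by
      rw [MonoidHom.mem_ker, ← hθ', MonoidHom.mem_ker.1 hx1, map_one]
    have h4 : r ⟨x, hx3, hx2⟩ = r 1 := by
      apply Subtype.ext
      show θ x = ((r 1 : σ.ker) : Γ)
      rw [map_one]
      exact hx1
    have h5 := hbij.1 h4
    exact congrArg Subtype.val h5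
  have hKp : θ.ker ≤ p.ker := by
    intro x hx
    rw [MonoidHom.mem_ker, ← hθ', MonoidHom.mem_ker.1 hx, map_one]
  letI : CommGroup θ.ker :=
    { θ.ker.toGroup with
      mul_comm := by
        intro x y
        ext
        exact (Subgroup.mem_center_iff.mp (hpc (hKp y.2)) x.1) }
  letI : CommGroup ξ.ker :=
    { ξ.ker.toGroup with
      mul_comm := by
        intro x y
        ext
        exact (Subgroup.mem_center_iff.mp (hc y.2) x.1) }
  let ι : θ.ker →* Abelianization (CE (FreeGroup.lift (id : Q → Q))) :=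
    Abelianization.of.comp θ.ker.subtype
  have hι : Function.Injective ι := by
    rw [injective_iff_map_eq_one]
    intro x hx
    have h1 : (x : CE (FreeGroup.lift (id : Q → Q))) ∈
        (Abelianization.of : CE (FreeGroup.lift (id : Q → Q)) →* _).ker := hx
    rw [Abelianization.ker_of] at h1
    have h2 : (x : CE (FreeGroup.lift (id : Q → Q))) ∈ θ.ker ⊓ commutator _ := ⟨x.2, h1⟩
    rw [hK] at h2
    exact Subtype.ext h2
  let g : θ.ker →* ξ.ker := (ψ.comp θ.ker.subtype).codRestrict ξ.ker (by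
    intro x
    rw [MonoidHom.mem_ker]
    show ξ (ψ x) = 1
    rw [hψ']
    exact hKp x.2)
  obtain ⟨h, hh⟩ := exists_extension_div (D := ξ.ker) (by
    intro n hn d
    obtain ⟨w, hw, e⟩ := hdiv n hn d.1 d.2
    exact ⟨⟨w, hw⟩, Subtype.ext e⟩) ι hι g
  let lam : CE (FreeGroup.lift (id : Q → Q)) →* ξ.ker := h.comp Abelianization.of
  have hlamc : ∀ e, ∀ y : X, y * ((lam e : ξ.ker) : X) = ((lam e : ξ.ker) : X) * y := fun e y =>
    Subgroup.mem_center_iff.mp (hc (lam e).2) y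
  let ψ' : CE (FreeGroup.lift (id : Q → Q)) →* X :=
    { toFun := fun e => ψ e * ((lam e : ξ.ker) : X)⁻¹
      map_one' := by simp
      map_mul' := by
        intro a b
        have h1 := hlamc a (ψ b)
        simp only [map_mul, Subgroup.coe_mul, mul_inv_rev]
        have h2 : ((lam b : ξ.ker) : X)⁻¹ * ((lam a : ξ.ker) : X)⁻¹ =
            ((lam a : ξ.ker) : X)⁻¹ * ((lam b : ξ.ker) : X)⁻¹ := by
          rw [← mul_inv_rev, ← mul_inv_rev, hlamc b]
        have h3 : ψ b * ((lam a : ξ.ker) : X)⁻¹ = ((lam a : ξ.ker) : X)⁻¹ * ψ b := by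
          rw [eq_inv_mul_iff_mul_eq, ← mul_assoc, ← h1, mul_assoc, mul_inv_cancel, mul_one]
        rw [h2, mul_assoc, mul_assoc, ← mul_assoc (ψ b), h3]
        simp only [mul_assoc] }
  have hψ'k : θ.ker ≤ ψ'.ker := by
    intro x hx
    rw [MonoidHom.mem_ker]
    show ψ x * ((lam x : ξ.ker) : X)⁻¹ = 1
    have h1 : lam x = g ⟨x, hx⟩ := by
      rw [← hh]; rfl
    rw [h1]
    show ψ x * (ψ x)⁻¹ = 1
    rw [mul_inv_cancel]
  refine ⟨(θ.liftOfSurjective hθs) ⟨ψ', hψ'k⟩, ?_⟩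
  have h6 : ((θ.liftOfSurjective hθs) ⟨ψ', hψ'k⟩).comp θ = ψ' :=
    MonoidHom.liftOfRightInverse_comp _ _ _ _
  ext x
  obtain ⟨e, rfl⟩ := hθs x
  have h7 : ((θ.liftOfSurjective hθs) ⟨ψ', hψ'k⟩) (θ e) = ψ' e := DFunLike.congr_fun h6 e
  rw [MonoidHom.comp_apply, h7]
  show ξ (ψ e * ((lam e : ξ.ker) : X)⁻¹) = σ (θ e)
  rw [map_mul, map_inv, MonoidHom.mem_ker.1 (lam e).2, inv_one, mul_one]
  rw [hψ', hθ']

theorem center_GL_divisible (n m : ℕ) (hm : m ≠ 0) (z : GL (Fin n) ℂ)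
    (hz : z ∈ Subgroup.center (GL (Fin n) ℂ)) :
    ∃ w ∈ Subgroup.center (GL (Fin n) ℂ), w ^ m = z := by
  rw [Matrix.GeneralLinearGroup.center_eq_range_scalar] at hz ⊢
  obtain ⟨c, rfl⟩ := hz
  obtain ⟨d, hd⟩ := IsAlgClosed.exists_pow_nat_eq (c : ℂ) (Nat.pos_of_ne_zero hm)
  have hd0 : d ≠ 0 := by
    rintro rfl
    rw [zero_pow hm] at hd
    exact c.ne_zero hd.symm
  refine ⟨Matrix.GeneralLinearGroup.scalar (Fin n) (Units.mk0 d hd0), ⟨_, rfl⟩, ?_⟩
  rw [← map_pow]
  congr 1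
  ext
  simpa using hd

/-- projective representations lift to a Schur cover -/
theorem proj_lift {Q : Type u} [Group Q] [Finite Q] {A : Type v} [CommGroup A]
    (hA : Cfsg.HasSchurMultiplier Q A) {Γ : Type*} [Group Γ] [Finite Γ] (σ : Γ →* Q)
    (hσ : Cfsg.IsStemExtension σ) (hk : Nonempty (σ.ker ≃* A)) (n : ℕ)
    (γ : Q →* (GL (Fin n) ℂ ⧸ Subgroup.center (GL (Fin n) ℂ))) :
    ∃ ρ : Γ →* GL (Fin n) ℂ,
      (QuotientGroup.mk' (Subgroup.center (GL (Fin n) ℂ))).comp ρ = γ.comp σ := by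
  set q := QuotientGroup.mk' (Subgroup.center (GL (Fin n) ℂ)) with hq
  have hqs : Function.Surjective q := QuotientGroup.mk'_surjective _
  have hqk : q.ker = Subgroup.center (GL (Fin n) ℂ) := QuotientGroup.ker_mk' _
  obtain ⟨ρ, hρ⟩ := lift_cover hA σ hσ hk (pullbackFst γ q) (pullbackFst_surjective γ q hqs)
    (pullbackFst_ker_le_center γ q hqk.le) (by
      rintro m hm ⟨⟨g, x⟩, hy⟩ hz
      have hg : g = 1 := hz
      subst hg
      have hx : x ∈ Subgroup.center (GL (Fin n) ℂ) := by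
        rw [← hqk, MonoidHom.mem_ker]
        have : γ 1 = q x := hy
        rw [← this, map_one]
      obtain ⟨w, hw, e⟩ := center_GL_divisible n m hm x hx
      have hw' : q w = 1 := by
        rw [← MonoidHom.mem_ker, hqk]; exact hw
      refine ⟨⟨(1, w), ?_⟩, ?_, ?_⟩
      · show γ 1 = q w
        rw [hw', map_one]
      · rfl
      · apply Subtype.ext
        show ((1 : Q), w) ^ m = (1, x)
        rw [Prod.pow_mk, one_pow, e])
  refine ⟨(pullbackSnd γ q).comp ρ, ?_⟩
  ext x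
  have h1 := pullback_comm γ q (ρ x)
  have h2 : pullbackFst γ q (ρ x) = σ x := DFunLike.congr_fun hρ x
  rw [h2] at h1
  exact h1.symm

end Cfsg.Agent.Lib.Helper21
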