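import Mathlib

/-!
For a central subgroup `Z` of a finite group `Δ` and `1 ≠ z ∈ Z` there is a complex matrix
representation of `Δ` in which `Z` acts by scalars and `z` acts nontrivially.
-/

set_option autoImplicit false

namespace Cfsg.Agent.Lib.Helper21

section
variable {Δ : Type*} [Group Δ] (Z : Subgroup Δ) (lam : Z →* ℂˣ)

/-- functions with `f (y x) = λ(y) f(x)` -/
def twSub : Submodule ℂ (Δ → ℂ) where
  carrier := {f | ∀ (y : Z) (x : Δ), f (y * x) = (lam y : ℂ) * f x}
  zero_mem' := by intro y x; simp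
  add_mem' := by
    intro a b ha hb y x
    rw [Pi.add_apply, Pi.add_apply, ha, hb, mul_add]
  smul_mem' := by
    intro c a ha y x
    rw [Pi.smul_apply, Pi.smul_apply, ha, smul_eq_mul, smul_eq_mul, mul_left_comm]

/-- right translation -/
def trans (d : Δ) : (Δ → ℂ) →ₗ[ℂ] (Δ → ℂ) := LinearMap.funLeft ℂ ℂ (fun x => x * d)

theorem trans_apply (d : Δ) (f : Δ → ℂ) (x : Δ) : trans d f x = f (x * d) := rfl

theorem trans_mem (d : Δ) : ∀ f ∈ twSub Z lam, trans d f ∈ twSub Z lam := by
  intro f hf y x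
  rw [trans_apply, trans_apply, mul_assoc, hf]

/-- the representation on `twSub` -/
def twRep : Δ →* Module.End ℂ (twSub Z lam) where
  toFun d := (trans d).restrict (trans_mem Z lam d)
  map_one' := by
    ext f x
    show (f : Δ → ℂ) (x * 1) = _
    rw [mul_one]
    rfl
  map_mul' := by
    intro a b
    ext f x
    show (f : Δ → ℂ) (x * (a * b)) = (f : Δ → ℂ) (x * a * b)
    rw [mul_assoc]

theorem twRep_central (hZ : Z ≤ Subgroup.center Δ) (y : Z) :
    twRep Z lam y = (lam y : ℂ) • (1 : Module.End ℂ (twSub Z lam)) := by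
  ext f x
  show (f : Δ → ℂ) (x * y) = (lam y : ℂ) * (f : Δ → ℂ) x
  rw [Subgroup.mem_center_iff.1 (hZ y.2) x]
  exact f.2 y x

open Classical in
/-- the extension of `λ` by zero -/
noncomputable def twVec : twSub Z lam :=
  ⟨fun x => if h : x ∈ Z then (lam ⟨x, h⟩ : ℂ) else 0, by
    intro y x
    by_cases h : x ∈ Z
    · have h' : (y : Δ) * x ∈ Z := Z.mul_mem y.2 h
      simp only [h, h', dif_pos]
      rw [← Units.val_mul, ← map_mul]
      rfl
    · have h' : ¬ (y : Δ) * x ∈ Z := by
        intro h2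
        apply h
        have := Z.mul_mem (Z.inv_mem y.2) h2
        rwa [inv_mul_cancel_left] at this
      simp only [h, h', dif_neg, not_false_eq_true, mul_zero]⟩

theorem twVec_one : (twVec Z lam : Δ → ℂ) 1 = 1 := by
  simp [twVec, Z.one_mem]
  exact map_one lam

end

theorem exists_rep_scalar {Δ : Type*} [Group Δ] [Finite Δ] (Z : Subgroup Δ)
    (hZ : Z ≤ Subgroup.center Δ) (z : Δ) (hz : z ∈ Z) (hz1 : z ≠ 1) :
    ∃ (n : ℕ) (R : Δ →* GL (Fin n) ℂ),
      (∀ y ∈ Z, R y ∈ Subgroup.center (GL (Fin n) ℂ)) ∧ R z ≠ 1 := by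
  letI : CommGroup Z :=
    { Z.toGroup with
      mul_comm := by
        intro x y
        ext
        exact (Subgroup.mem_center_iff.mp (hZ y.2) x.1) }
  haveI : NeZero (Monoid.exponent Z) := ⟨Monoid.exponent_ne_zero_of_finite⟩
  obtain ⟨lam, hlam⟩ := CommGroup.exists_apply_ne_one_of_hasEnoughRootsOfUnity Z ℂ
    (a := ⟨z, hz⟩) (by intro e; exact hz1 (congrArg Subtype.val e))
  let b := Module.finBasis ℂ (twSub Z lam)
  let E := LinearMap.toMatrixAlgEquiv b
  refine ⟨_, (Units.map E.toAlgHom.toRingHom.toMonoidHom).comp (twRep Z lam).toHomUnits, ?_, ?_⟩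
  · intro y hy
    rw [Matrix.GeneralLinearGroup.mem_center_iff_val_mem_range_scalar]
    refine ⟨(lam ⟨y, hy⟩ : ℂ), ?_⟩
    show _ = E (twRep Z lam y)
    rw [twRep_central Z lam hZ ⟨y, hy⟩, map_smul, map_one]
    ext i j
    simp [Matrix.scalar, Matrix.diagonal, Matrix.one_apply]
  · intro e
    have h1 : E (twRep Z lam z) = 1 := congrArg Units.val e
    have h2 : twRep Z lam z = 1 := by
      apply E.injective
      rw [h1, map_one]
    rw [twRep_central Z lam hZ ⟨z, hz⟩] at h2
    have h3 := congrArg (fun T : Module.End ℂ (twSub Z lam) => ((T (twVec Z lam) : twSub Z lam) : Δ → ℂ) 1) h2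
    simp only [LinearMap.smul_apply, Module.End.one_apply, Submodule.coe_smul, Pi.smul_apply,
      twVec_one, smul_eq_mul, mul_one] at h3
    exact hlam (Units.ext h3)

end Cfsg.Agent.Lib.Helper21
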