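import Mathlib
import Cfsg.Prelude.Def_KGroupFacts
import Cfsg.Agent.Lib.Helper21.Stem
import Cfsg.Agent.Lib.Helper21.Central
import Cfsg.Agent.Lib.Helper21.ScalarRep

/-!
A stem extension to which all projective representations lift is a Schur cover.
-/

set_option autoImplicit false
open scoped commutatorElement

namespace Cfsg.Agent.Lib.Helper21

theorem eq_on_commutator {P X : Type*} [Group P] [Group X] (a b : P →* X)
    (h : ∀ w, (a w)⁻¹ * b w ∈ Subgroup.center X) (y : P) (hy : y ∈ commutator P) :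
    (a y)⁻¹ * b y = 1 := by
  let c : P →* Subgroup.center X :=
    { toFun := fun w => ⟨(a w)⁻¹ * b w, h w⟩
      map_one' := by
        apply Subtype.ext
        simp
      map_mul' := by
        intro u v
        apply Subtype.ext
        show (a (u * v))⁻¹ * b (u * v) = ((a u)⁻¹ * b u) * ((a v)⁻¹ * b v)
        have h3 := Subgroup.mem_center_iff.1 (h u) (a v)⁻¹
        rw [← mul_assoc, ← h3]
        simp only [map_mul, mul_inv_rev, mul_assoc] }
  have hle : commutator P ≤ c.ker := by
    rw [commutator_def, Subgroup.commutator_le]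
    intro u _ v _
    rw [MonoidHom.mem_ker, map_commutatorElement, commutatorElement_eq_one_iff_mul_comm]
    apply Subtype.ext
    exact (Subgroup.mem_center_iff.1 (c v).2 (c u).1)
  have h4 : c y = 1 := hle hy
  exact congrArg Subtype.val h4

theorem surj_of_proj_lift {Q Γ Δ : Type*} [Group Q] [Group Γ] [Group Δ] [Finite Δ]
    (σ : Γ →* Q) (hσ : Cfsg.IsStemExtension σ)
    (hlift : ∀ (n : ℕ) (γ : Q →* (GL (Fin n) ℂ ⧸ Subgroup.center (GL (Fin n) ℂ))),
      ∃ ρ : Γ →* GL (Fin n) ℂ,
        (QuotientGroup.mk' (Subgroup.center (GL (Fin n) ℂ))).comp ρ = γ.comp σ)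
    (τ : Δ →* Q) (hτ : Cfsg.IsStemExtension τ) :
    ∃ π : σ.ker →* τ.ker, Function.Surjective π := by
  set p1 := pullbackFst σ τ with hp1
  set p2 := pullbackSnd σ τ with hp2
  have hp1s : Function.Surjective p1 := pullbackFst_surjective σ τ hτ.1
  have hp2s : Function.Surjective p2 := pullbackSnd_surjective σ τ hσ.1
  have hcomm : ∀ w, σ (p1 w) = τ (p2 w) := pullback_comm σ τ
  have claim : ∀ y : pullback σ τ, y ∈ commutator (pullback σ τ) → p1 y = 1 → y = 1 := by
    intro y hy h1
    by_contra hne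
    have hz : p2 y ∈ τ.ker := by
      rw [MonoidHom.mem_ker, ← hcomm, h1, map_one]
    have hz1 : p2 y ≠ 1 := by
      intro h2
      apply hne
      apply Subtype.ext
      exact Prod.ext h1 h2
    obtain ⟨n, R, hR, hRz⟩ := exists_rep_scalar τ.ker hτ.2.1 (p2 y) hz hz1
    set q := QuotientGroup.mk' (Subgroup.center (GL (Fin n) ℂ)) with hq
    have hqk : q.ker = Subgroup.center (GL (Fin n) ℂ) := QuotientGroup.ker_mk' _
    have hker : τ.ker ≤ (q.comp R).ker := by
      intro d hd
      rw [MonoidHom.mem_ker, MonoidHom.comp_apply, ← MonoidHom.mem_ker, hqk]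
      exact hR d hd
    let γ := (τ.liftOfSurjective hτ.1) ⟨q.comp R, hker⟩
    have hγ0 : γ.comp τ = q.comp R :=
      MonoidHom.liftOfRightInverse_comp τ _ (Function.rightInverse_surjInv hτ.1) ⟨q.comp R, hker⟩
    have hγ : ∀ d, γ (τ d) = q (R d) := fun d => DFunLike.congr_fun hγ0 d
    obtain ⟨ρ, hρ⟩ := hlift n γ
    have hρ' : ∀ x, q (ρ x) = γ (σ x) := fun x => DFunLike.congr_fun hρ x
    have hmem : ∀ w, (ρ (p1 w))⁻¹ * R (p2 w) ∈ Subgroup.center (GL (Fin n) ℂ) := by
      intro w
      rw [← hqk, MonoidHom.mem_ker, map_mul, map_inv, hρ', hcomm, hγ, inv_mul_cancel]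
    have h5 : (ρ (p1 y))⁻¹ * R (p2 y) = 1 :=
      eq_on_commutator (ρ.comp p1) (R.comp p2) hmem y hy
    rw [h1, map_one, inv_one, one_mul] at h5
    exact hRz h5
  set T : Subgroup (pullback σ τ) := commutator (pullback σ τ) ⊓ (σ.comp p1).ker with hT
  let f1 : T →* σ.ker := (p1.comp T.subtype).codRestrict σ.ker (fun w => w.2.2)
  let f2 : T →* τ.ker := (p2.comp T.subtype).codRestrict τ.ker (fun w => by
    rw [MonoidHom.mem_ker]
    show τ (p2 w) = 1
    rw [← hcomm]
    exact w.2.2)
  have hf1 : Function.Bijective f1 := by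
    constructor
    · rw [injective_iff_map_eq_one]
      intro w hw
      exact Subtype.ext (claim w w.2.1 (congrArg Subtype.val hw))
    · rintro ⟨k, hk⟩
      have h1 : k ∈ (commutator (pullback σ τ)).map p1 := by
        rw [map_commutator_of_surjective p1 hp1s]
        exact hσ.2.2 hk
      obtain ⟨w, hw, rfl⟩ := h1
      exact ⟨⟨w, hw, hk⟩, rfl⟩
  have hf2 : Function.Surjective f2 := by
    rintro ⟨z, hz⟩
    have h1 : z ∈ (commutator (pullback σ τ)).map p2 := by
      rw [map_commutator_of_surjective p2 hp2s]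
      exact hτ.2.2 hz
    obtain ⟨w, hw, rfl⟩ := h1
    refine ⟨⟨w, hw, ?_⟩, rfl⟩
    show σ (p1 w) = 1
    rw [hcomm]
    exact hz
  exact ⟨f2.comp (MulEquiv.ofBijective f1 hf1).symm.toMonoidHom,
    hf2.comp (MulEquiv.ofBijective f1 hf1).symm.surjective⟩

end Cfsg.Agent.Lib.Helper21
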