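import Mathlib

set_option autoImplicit false

namespace Cfsg.Agent.Lib.Helper21.QuatKernel

/-- For odd `k` there are `a, b` with `a² + b² + 1 ≡ 0 (mod k)` (via Dirichlet and Fermat). -/
theorem exists_sq_add_sq (k : ℕ) (hk : Odd k) : ∃ a b : ℕ, k ∣ a ^ 2 + b ^ 2 + 1 := by
  obtain ⟨j, rfl⟩ := hk
  have hne : NeZero (4 * (2 * j + 1)) := ⟨by omega⟩
  have hcop : Nat.Coprime (4 * j + 1) (4 * (2 * j + 1)) := by
    rw [← Nat.isCoprime_iff_coprime]
    refine ⟨4 * j + 1, -(2 * j), ?_⟩
    push_cast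
    ring
  have hu : IsUnit (((4 * j + 1 : ℕ)) : ZMod (4 * (2 * j + 1))) :=
    (ZMod.isUnit_iff_coprime _ _).mpr hcop
  obtain ⟨p, -, hp, hpe⟩ := Nat.forall_exists_prime_gt_and_eq_mod hu 0
  rw [ZMod.natCast_eq_natCast_iff] at hpe
  have h4 : p ≡ 4 * j + 1 [MOD 4] := hpe.of_mul_right _
  have hk' : p ≡ 4 * j + 1 [MOD (2 * j + 1)] := hpe.of_mul_left _
  have := Fact.mk hp
  obtain ⟨a, b, hab⟩ := Nat.Prime.sq_add_sq (p := p) (by
    have : p % 4 = (4 * j + 1) % 4 := h4
    omega)
  refine ⟨a, b, ?_⟩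
  rw [hab]
  have h5 : p + 1 ≡ 4 * j + 1 + 1 [MOD (2 * j + 1)] := hk'.add_right 1
  have h6 : (4 * j + 1 + 1) % (2 * j + 1) = 0 := by
    have : 4 * j + 1 + 1 = (2 * j + 1) * 2 := by ring
    rw [this]; simp
  exact Nat.dvd_of_mod_eq_zero ((show (p + 1) % (2 * j + 1) = _ from h5).trans h6)

section add
variable {A : Type*} [AddCommGroup A] [Finite A]

omit [Finite A] in
theorem two_torsion_free (hodd : Odd (Nat.card A)) {w : A} (h : w + w = 0) : w = 0 := by
  obtain ⟨j, hj⟩ := hodd
  have h1 : (Nat.card A) • w = 0 := card_nsmul_eq_zero'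
  rw [hj, add_nsmul, mul_comm, mul_nsmul', one_nsmul, two_nsmul, h, nsmul_zero, zero_add] at h1
  exact h1

theorem isSquare_card_of_quat (hodd : Odd (Nat.card A)) (X Y : A →+ A)
    (hX : ∀ v, X (X v) = -v) (hY : ∀ v, Y (Y v) = -v) (hXY : ∀ v, X (Y v) = -Y (X v)) :
    IsSquare (Nat.card A) := by
  obtain ⟨a, b, c, hab⟩ := exists_sq_add_sq _ hodd
  have hkill : ∀ v : A, (a ^ 2 + b ^ 2 + 1) • v = 0 := by
    intro v
    rw [hab, mul_comm, mul_nsmul', card_nsmul_eq_zero', nsmul_zero]
  have hYX : ∀ v, Y (X v) = -X (Y v) := fun v => by rw [hXY, neg_neg]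
  let t : A →+ A := a • X + b • Y
  have ht : ∀ v, t v = a • X v + b • Y v := fun v => rfl
  have htt : ∀ v, t (t v) = v := by
    intro v
    have h := hkill v
    simp only [ht, map_add, map_nsmul, hX, hY, hYX]
    have h2 : a • (a • -v + b • X (Y v)) + b • (a • -X (Y v) + b • -v)
        = v - (a ^ 2 + b ^ 2 + 1) • v := by module
    rw [h2, h, sub_zero]
  let W : A →+ A := X.comp Y
  have hW : ∀ v, W v = X (Y v) := fun v => rfl
  have hWt : ∀ v, t (W v) = -W (t v) := by
    intro v
    simp only [ht, hW, map_add, map_nsmul, hX, hY, hYX, map_neg, neg_neg]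
    module
  have hWW : ∀ v, W (W v) = -v := by
    intro v
    simp only [hW, hYX, map_neg, hX, hY, neg_neg]
  have hWinj : Function.Injective W := by
    intro u v h
    have := congrArg W h
    rw [hWW, hWW] at this
    exact neg_injective this
  let P := {v : A // t v = v}
  let M := {v : A // t v = -v}
  have hPM : Nat.card P ≤ Nat.card M := by
    apply Nat.card_le_card_of_injective (fun v : P => (⟨W v.1, by rw [hWt, v.2]⟩ : M))
    intro u v h
    exact Subtype.ext (hWinj (congrArg Subtype.val h))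
  have hMP : Nat.card M ≤ Nat.card P := by
    apply Nat.card_le_card_of_injective (fun v : M => (⟨W v.1, by rw [hWt, v.2, map_neg, neg_neg]⟩ : P))
    intro u v h
    exact Subtype.ext (hWinj (congrArg Subtype.val h))
  have hbij : Function.Bijective (fun x : P × M => x.1.1 + x.2.1) := by
    constructor
    · rintro ⟨⟨u, hu⟩, ⟨w, hw⟩⟩ ⟨⟨u', hu'⟩, ⟨w', hw'⟩⟩ h
      have h : u + w = u' + w' := h
      have h1 : u - u' = w' - w := by
        rw [sub_eq_sub_iff_add_eq_add, h, add_comm]
      have h2 : t (u - u') = u - u' := by rw [map_sub, hu, hu']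
      have h3 : t (u - u') = -(u - u') := by rw [h1, map_sub, hw, hw']; abel
      have h4 : (u - u') + (u - u') = 0 := by
        nth_rewrite 1 [← h2]
        rw [h3]; abel
      have h5 := two_torsion_free hodd h4
      have h6 : u = u' := sub_eq_zero.mp h5
      have h7 : w = w' := by
        rw [h5] at h1
        exact (sub_eq_zero.mp h1.symm).symm
      subst h6; subst h7; rfl
    · intro v
      obtain ⟨j, hj⟩ := hodd
      have hv : (2 * (j + 1)) • v = v := by
        have h1 : (Nat.card A) • v = 0 := card_nsmul_eq_zero'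
        have : 2 * (j + 1) = Nat.card A + 1 := by omega
        rw [this, add_nsmul, h1, zero_add, one_nsmul]
      refine ⟨(⟨(j + 1) • (v + t v), ?_⟩, ⟨(j + 1) • (v - t v), ?_⟩), ?_⟩
      · rw [map_nsmul, map_add, htt, add_comm v]
      · rw [map_nsmul, map_sub, htt]; module
      · change (j + 1) • (v + t v) + (j + 1) • (v - t v) = v
        rw [← nsmul_add]
        have : v + t v + (v - t v) = 2 • v := by rw [two_nsmul]; abel
        rw [this, ← mul_nsmul', mul_comm, hv]
  have hcard : Nat.card A = Nat.card P * Nat.card M := by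
    rw [← Nat.card_prod]
    exact (Nat.card_congr (Equiv.ofBijective _ hbij)).symm
  exact ⟨Nat.card P, by rw [hcard, le_antisymm hMP hPM]⟩

end add

section mul
variable {L : Type*} [Group L] [Finite L]

/-- A fixed-point-free involutory conjugation inverts. -/
theorem inverts_of_fpf (N : Subgroup L) [hN : N.Normal] (z : L) (hz : z * z = 1)
    (hfpf : N ⊓ Subgroup.centralizer {z} = ⊥) : ∀ n ∈ N, z * n * z⁻¹ = n⁻¹ := by
  have hfix : ∀ n ∈ N, z * n * z⁻¹ = n → n = 1 := by
    intro n hn h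
    have : n ∈ N ⊓ Subgroup.centralizer {z} := by
      refine ⟨hn, ?_⟩
      change n ∈ Subgroup.centralizer {z}
      rw [Subgroup.mem_centralizer_singleton_iff]
      calc n * z = (z * n * z⁻¹) * z := by rw [h]
        _ = z * n := by group
    rw [hfpf, Subgroup.mem_bot] at this
    exact this
  have hzinv : z⁻¹ = z := inv_eq_of_mul_eq_one_left hz
  let φ : N → N := fun n => ⟨(n : L)⁻¹ * (z * n * z⁻¹), N.mul_mem (N.inv_mem n.2) (hN.conj_mem _ n.2 z)⟩
  have hinj : Function.Injective φ := by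
    intro n m h
    have h1 : (n : L)⁻¹ * (z * n * z⁻¹) = (m : L)⁻¹ * (z * m * z⁻¹) := congrArg Subtype.val h
    have h2 : z * ((m : L) * (n : L)⁻¹) * z⁻¹ = (m : L) * (n : L)⁻¹ := by
      have e1 : z * ((m : L) * (n : L)⁻¹) * z⁻¹ = (z * m * z⁻¹) * (z * n * z⁻¹)⁻¹ := by group
      have e2 : z * m * z⁻¹ = (m : L) * ((n : L)⁻¹ * (z * n * z⁻¹)) := by rw [h1]; group
      rw [e1, e2]; group
    have h3 := hfix _ (N.mul_mem m.2 (N.inv_mem n.2)) h2
    exact Subtype.ext (mul_inv_eq_one.mp h3).symm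
  have hsurj : Function.Surjective φ := Finite.injective_iff_surjective.mp hinj
  intro n hn
  obtain ⟨m, hm⟩ := hsurj ⟨n, hn⟩
  have hm' : (m : L)⁻¹ * (z * m * z⁻¹) = n := congrArg Subtype.val hm
  rw [← hm', hzinv]
  have : z * ((m : L)⁻¹ * (z * m * z)) * z = z * (m : L)⁻¹ * z * m * (z * z) := by group
  rw [this, hz]
  simp only [mul_one, mul_inv_rev, hzinv, inv_inv, mul_assoc]

theorem kernel_odd_square (N : Subgroup L) [hN : N.Normal] (x y : L) (hxy : y * y = x * x)
    (hx4 : (x * x) * (x * x) = 1) (hconj : y * x * y⁻¹ = x⁻¹)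
    (hfpf : N ⊓ Subgroup.centralizer {x * x} = ⊥) :
    Odd (Nat.card N) ∧ IsSquare (Nat.card N) := by
  have hinv := inverts_of_fpf N (x * x) hx4 hfpf
  have hcomm : ∀ a b : N, a * b = b * a := by
    intro a b
    apply Subtype.ext
    have h1 := hinv _ (N.mul_mem a.2 b.2)
    have h2 : (x * x) * ((a : L) * b) * (x * x)⁻¹ =
        ((x * x) * a * (x * x)⁻¹) * ((x * x) * b * (x * x)⁻¹) := by group
    rw [h2, hinv _ a.2, hinv _ b.2, ← mul_inv_rev] at h1
    exact (inv_injective h1).symm
  have hodd : Odd (Nat.card N) := by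
    rw [← Nat.not_even_iff_odd]
    intro he
    obtain ⟨u, hu⟩ := exists_prime_orderOf_dvd_card' (G := N) 2 he.two_dvd
    have hu2 : (u : L) * u = 1 := by
      have := pow_orderOf_eq_one u
      rw [hu, sq] at this
      exact congrArg Subtype.val this
    have h1 := hinv _ u.2
    have h2 : (u : L)⁻¹ = u := inv_eq_of_mul_eq_one_left hu2
    rw [h2] at h1
    have : (u : L) ∈ N ⊓ Subgroup.centralizer {x * x} := by
      refine ⟨u.2, ?_⟩
      change (u : L) ∈ Subgroup.centralizer {x * x}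
      rw [Subgroup.mem_centralizer_singleton_iff]
      calc (u : L) * (x * x) = ((x * x) * u * (x * x)⁻¹) * (x * x) := by rw [h1]
        _ = (x * x) * u := by group
    rw [hfpf, Subgroup.mem_bot] at this
    have hu1 : u = 1 := Subtype.ext this
    rw [hu1, orderOf_one] at hu
    omega
  refine ⟨hodd, ?_⟩
  letI : CommGroup N := { (inferInstance : Group N) with mul_comm := hcomm }
  let cj : L → (N →* N) := fun g =>
    { toFun := fun n => ⟨g * n * g⁻¹, hN.conj_mem _ n.2 g⟩
      map_one' := Subtype.ext (by simp)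
      map_mul' := fun a b => Subtype.ext (by simp [mul_assoc]) }
  have hcj : ∀ g (n : N), ((cj g n : N) : L) = g * n * g⁻¹ := fun g n => rfl
  have hcard : Nat.card (Additive N) = Nat.card N := rfl
  rw [← hcard] at hodd ⊢
  refine isSquare_card_of_quat (A := Additive N) hodd (MonoidHom.toAdditive (cj x))
    (MonoidHom.toAdditive (cj y)) ?_ ?_ ?_
  · intro v
    change Additive.ofMul (cj x (cj x v.toMul)) = Additive.ofMul (v.toMul)⁻¹
    congr 1
    apply Subtype.ext
    rw [hcj, hcj, Subgroup.coe_inv, ← hinv _ v.toMul.2]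
    group
  · intro v
    change Additive.ofMul (cj y (cj y v.toMul)) = Additive.ofMul (v.toMul)⁻¹
    congr 1
    apply Subtype.ext
    rw [hcj, hcj, Subgroup.coe_inv, ← hinv _ v.toMul.2, ← hxy]
    group
  · intro v
    change Additive.ofMul (cj x (cj y v.toMul)) = Additive.ofMul (cj y (cj x v.toMul))⁻¹
    congr 1
    apply Subtype.ext
    rw [hcj, hcj, Subgroup.coe_inv, ← hinv _ (cj y (cj x v.toMul)).2, hcj, hcj]
    have h1 : y * x = x⁻¹ * y := by
      calc y * x = (y * x * y⁻¹) * y := by group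
        _ = x⁻¹ * y := by rw [hconj]
    have h2 : x * x * (y * (x * (v.toMul : L) * x⁻¹) * y⁻¹) * (x * x)⁻¹ =
        (x * x * (y * x)) * (v.toMul : L) * (x * x * (y * x))⁻¹ := by group
    rw [h2, h1]
    group

end mul

end Cfsg.Agent.Lib.Helper21.QuatKernel
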