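import Cfsg.Agent.Lib.Helper21.QuatKernel
import Cfsg.Agent.S0035
import Cfsg.Agent.S0039

set_option autoImplicit false

namespace Cfsg.Agent.Lib.Helper21.QuatKernel

open QuaternionGroup

theorem quat_elems (m : ℕ) [NeZero m] : ∃ x y : QuaternionGroup (2 * m),
    y * y = x * x ∧ (x * x) * (x * x) = 1 ∧ y * x * y⁻¹ = x⁻¹ ∧ x * x ≠ 1 := by
  have h4 : ((2 * (2 * m) : ℕ) : ZMod (2 * (2 * m))) = 0 := ZMod.natCast_self _
  refine ⟨a m, xa 0, ?_, ?_, ?_, ?_⟩
  · rw [xa_mul_xa, a_mul_a]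
    congr 1
    push_cast
    ring
  · rw [a_mul_a, a_mul_a, one_def]
    congr 1
    rw [← h4]
    push_cast
    ring
  · have hinv : (a (m : ZMod (2 * (2 * m))) : QuaternionGroup (2 * m))⁻¹ = a (-(m : ZMod (2 * (2 * m)))) :=
      inv_eq_of_mul_eq_one_right (by rw [a_mul_a, add_neg_cancel, a_zero])
    rw [mul_inv_eq_iff_eq_mul, hinv, xa_mul_a, a_mul_xa]
    congr 1
    ring
  · rw [a_mul_a, one_def]
    intro h
    have h1 : (m : ZMod (2 * (2 * m))) + m = 0 := a.inj h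
    have h2 : ((2 * m : ℕ) : ZMod (2 * (2 * m))) = 0 := by
      rw [← h1]; push_cast; ring
    rw [ZMod.natCast_eq_zero_iff] at h2
    have := Nat.le_of_dvd (by have := NeZero.pos m; omega) h2
    have := NeZero.pos m
    omega

theorem frob_quat {L : Type*} [Group L] [Finite L] (H : Subgroup L)
    (hF : Cfsg.IsFrobeniusComplement H) (x y : L) (hx : x ∈ H) (hxy : y * y = x * x)
    (hx4 : (x * x) * (x * x) = 1) (hconj : y * x * y⁻¹ = x⁻¹) (hne : x * x ≠ 1) :
    Odd (Nat.card (Cfsg.frobeniusKernel H)) ∧ IsSquare (Nat.card (Cfsg.frobeniusKernel H)) := by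
  obtain ⟨N, hN, hNn, hc⟩ := Cfsg.Agent.S0035.result H hF
  have hNne : N ≠ ⊥ := by
    intro h
    rw [h] at hc
    exact hF.2.1 (Subgroup.isComplement'_bot_left.mp hc)
  have hfpf := (Cfsg.Agent.S0039.result N H hc hNne hF.1).mp hF
  have := kernel_odd_square N x y hxy hx4 hconj (hfpf _ (H.mul_mem hx hx) hne)
  rw [← hN]
  exact this

end Cfsg.Agent.Lib.Helper21.QuatKernel
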