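import Cfsg.Agent.Lib.Lead.Quat
import Cfsg.Agent.Lib.Helper21.QuatKernel

set_option autoImplicit false

namespace Cfsg.Agent.Lib.Helper21.QuatKernel

open Cfsg.Agent.Lib.Lead

/-- Homomorphisms out of the dicyclic group. -/
theorem exists_quatHom {G : Type*} [Group G] (n : ℕ) [NeZero n] (a y : G)
    (ha1 : a ^ (2 * n) = 1) (hy : y ^ 2 = a ^ n) (hya : y * a * y⁻¹ = a⁻¹) :
    ∃ F : QuaternionGroup n →* G, (∀ i, F (QuaternionGroup.a i) = a ^ i.val) ∧
      ∀ i, F (QuaternionGroup.xa i) = y * a ^ i.val := by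
  have hconj : ∀ k : ℕ, a ^ k * y = y * (a ^ k)⁻¹ := by
    intro k
    have h1 : y * a ^ k * y⁻¹ = (a ^ k)⁻¹ := by
      rw [← conj_pow, hya, inv_pow]
    have h2 : y * (a ^ k)⁻¹ * y⁻¹ = a ^ k := by
      have := congrArg (·⁻¹) h1
      simp only [mul_inv_rev, inv_inv] at this
      rw [mul_assoc]; exact this
    calc a ^ k * y = (y * (a ^ k)⁻¹ * y⁻¹) * y := by rw [h2]
      _ = y * (a ^ k)⁻¹ := by group
  have hcomm : ∀ k l : ℕ, a ^ k * a ^ l = a ^ l * a ^ k := fun k l =>
    ((Commute.refl a).pow_pow k l).eq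
  have hnval : ((n : ZMod (2 * n))).val = n := by
    apply ZMod.val_natCast_of_lt
    have := NeZero.pos n
    omega
  let f : QuaternionGroup n → G := fun q =>
    match q with
    | QuaternionGroup.a i => a ^ i.val
    | QuaternionGroup.xa i => y * a ^ i.val
  have hfa : ∀ i, f (QuaternionGroup.a i) = a ^ i.val := fun _ => rfl
  have hfx : ∀ i, f (QuaternionGroup.xa i) = y * a ^ i.val := fun _ => rfl
  have hmul : ∀ p q, f (p * q) = f p * f q := by
    rintro (i | i) (j | j)
    · rw [QuaternionGroup.a_mul_a, hfa, hfa, hfa, pow_val_add' ha1]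
    · rw [QuaternionGroup.a_mul_xa, hfa, hfx, hfx, pow_val_sub' ha1, ← mul_assoc (a ^ i.val),
        hconj, mul_assoc]
      congr 1
      have := hcomm i.val j.val
      rw [eq_comm, inv_mul_eq_iff_eq_mul, ← mul_assoc, this, mul_assoc, mul_inv_cancel, mul_one]
    · rw [QuaternionGroup.xa_mul_a, hfa, hfx, hfx, pow_val_add' ha1, mul_assoc]
    · rw [QuaternionGroup.xa_mul_xa, hfa, hfx, hfx, pow_val_sub' ha1, pow_val_add' ha1, hnval]
      calc a ^ n * a ^ j.val * (a ^ i.val)⁻¹ = y ^ 2 * ((a ^ i.val)⁻¹ * a ^ j.val) := by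
            rw [hy, mul_assoc]
            congr 1
            have := hcomm i.val j.val
            rw [eq_comm, inv_mul_eq_iff_eq_mul, ← mul_assoc, this, mul_assoc, mul_inv_cancel,
              mul_one]
        _ = y * (y * (a ^ i.val)⁻¹) * a ^ j.val := by rw [sq]; simp only [mul_assoc]
        _ = y * (a ^ i.val * y) * a ^ j.val := by rw [hconj]
        _ = y * a ^ i.val * (y * a ^ j.val) := by simp only [mul_assoc]
  exact ⟨MonoidHom.mk' f hmul, hfa, hfx⟩

section construct
variable (k : ℕ)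

/-- the additive automorphism `(u,v) ↦ (a u + b v, b u - a v)` when `a² + b² = -1`. -/
def autI (a b : ZMod k) (hab : a ^ 2 + b ^ 2 = -1) : (ZMod k × ZMod k) ≃+ (ZMod k × ZMod k) where
  toFun v := (a * v.1 + b * v.2, b * v.1 - a * v.2)
  invFun v := (-(a * v.1 + b * v.2), -(b * v.1 - a * v.2))
  left_inv v := by
    ext
    · simp only; linear_combination (-v.1) * hab
    · simp only; linear_combination (-v.2) * hab
  right_inv v := by
    ext
    · simp only; linear_combination (-v.1) * hab
    · simp only; linear_combination (-v.2) * hab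
  map_add' u v := by
    ext
    · simp only [Prod.fst_add, Prod.snd_add]; ring
    · simp only [Prod.fst_add, Prod.snd_add]; ring

def autJ : (ZMod k × ZMod k) ≃+ (ZMod k × ZMod k) where
  toFun v := (-v.2, v.1)
  invFun v := (v.2, -v.1)
  left_inv v := by ext <;> simp
  right_inv v := by ext <;> simp
  map_add' u v := by
    ext
    · simp only [Prod.fst_add, Prod.snd_add]; ring
    · simp only [Prod.fst_add, Prod.snd_add]

theorem exists_action (hk : Odd k) :
    ∃ φ : QuaternionGroup 2 →* MulAut (Multiplicative (ZMod k × ZMod k)),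
      ∀ h : QuaternionGroup 2, h ≠ 1 → ∀ v, φ h v = v → v = 1 := by
  obtain ⟨a, b, hab⟩ := exists_sq_add_sq k hk
  have hab' : (a : ZMod k) ^ 2 + (b : ZMod k) ^ 2 = -1 := by
    have : ((a ^ 2 + b ^ 2 + 1 : ℕ) : ZMod k) = 0 := (ZMod.natCast_eq_zero_iff _ _).mpr hab
    push_cast at this
    linear_combination this
  let A : MulAut (Multiplicative (ZMod k × ZMod k)) := AddEquiv.toMultiplicative (autI k a b hab')
  let Y : MulAut (Multiplicative (ZMod k × ZMod k)) := AddEquiv.toMultiplicative (autJ k)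
  have hA : ∀ v, A v = Multiplicative.ofAdd
      ((a : ZMod k) * v.toAdd.1 + b * v.toAdd.2, (b : ZMod k) * v.toAdd.1 - a * v.toAdd.2) :=
    fun v => rfl
  have hY : ∀ v, Y v = Multiplicative.ofAdd (-v.toAdd.2, v.toAdd.1) := fun v => rfl
  have hA2 : ∀ v, (A ^ 2) v = v⁻¹ := by
    intro v
    rw [sq, MulAut.mul_apply, hA, hA]
    apply Multiplicative.toAdd.injective
    ext
    · simp only [toAdd_ofAdd, toAdd_inv, Prod.fst_neg]; linear_combination v.toAdd.1 * hab'
    · simp only [toAdd_ofAdd, toAdd_inv, Prod.snd_neg]; linear_combination v.toAdd.2 * hab'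
  have hY2 : ∀ v, (Y ^ 2) v = v⁻¹ := by
    intro v
    rw [sq, MulAut.mul_apply, hY, hY]
    apply Multiplicative.toAdd.injective
    ext <;> simp
  obtain ⟨F, hFa, hFx⟩ := exists_quatHom 2 A Y (by
      apply MulEquiv.ext
      intro v
      rw [show 2 * 2 = 2 + 2 from rfl, pow_add, MulAut.mul_apply, hA2, hA2, inv_inv]; rfl) (by
      apply MulEquiv.ext
      intro v
      rw [hA2, hY2]) (by
      rw [mul_inv_eq_iff_eq_mul, eq_inv_mul_iff_mul_eq]
      apply MulEquiv.ext
      intro v
      rw [MulAut.mul_apply, MulAut.mul_apply, hA, hY, hA, hY]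
      apply Multiplicative.toAdd.injective
      apply Prod.ext
      · simp only [toAdd_ofAdd]; linear_combination v.toAdd.2 * hab'
      · simp only [toAdd_ofAdd]; linear_combination (-v.toAdd.1) * hab')
  refine ⟨F, ?_⟩
  have hz : ∀ v, F (QuaternionGroup.a 2) v = v⁻¹ := by
    intro v
    rw [hFa, show (2 : ZMod (2 * 2)).val = 2 from rfl, hA2]
  have hcases : ∀ h : QuaternionGroup 2, h ≠ 1 → h = QuaternionGroup.a 2 ∨ h * h = QuaternionGroup.a 2 := by
    decide
  intro h hne v hv
  have hv2 : v⁻¹ = v := by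
    rcases hcases h hne with rfl | h2
    · rw [← hz, hv]
    · rw [← hz, ← h2, map_mul, MulAut.mul_apply, hv, hv]
  have h3 : v.toAdd + v.toAdd = 0 := by
    have := congrArg Multiplicative.toAdd hv2
    rw [toAdd_inv] at this
    nth_rewrite 1 [← this]
    simp
  have hne : NeZero k := ⟨by rintro rfl; simp at hk⟩
  have hcard : Nat.card (ZMod k × ZMod k) = k * k := by
    rw [Nat.card_prod, Nat.card_zmod]
  have := two_torsion_free (A := ZMod k × ZMod k) (by rw [hcard]; exact hk.mul hk) h3
  exact Multiplicative.toAdd.injective this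

end construct

end Cfsg.Agent.Lib.Helper21.QuatKernel
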